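import Cfsg.Agent.H28.JkDefs
import Cfsg.Agent.H82.JtDich

/-!
# JZ-KILL (sub-project JK of S2951 / S2952, helper28) piece JK-F1: the two-sided dichotomy (F1)
from the `S₃^r` picture, `C_G(u) ≤ L` and TI
-/

set_option autoImplicit false
open Cfsg

universe u

namespace Cfsg.Agent.H72.Jk

open Cfsg.Agent.H28.Jk Cfsg.Agent.H52.Sr Cfsg.Agent.H82.Jt

/-- JK-F1. -/
theorem kf1 : StKF1.{u} := by
  intro G _ _ T K L hSR hr hNV hV2 hC hTI a b hab u hu v hv
  obtain ⟨hsup, hind, h3, hperm, -, -⟩ := hSR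
  have hmapV : ∀ g ∈ L, (VV L).map (MulAut.conj g).toMonoidHom = VV L := by
    intro g hg
    rw [← hNV] at hg
    ext x
    rw [mem_conj]
    have := Subgroup.mem_normalizer_iff.mp (inv_mem hg) x
    rw [inv_inv] at this
    exact this.symm
  have hd := dich (VV L) (fun i : Orb T K => wOf i.1)
    (by intro w hw hw1; rw [hNV]; exact hC w hw hw1) hV2 hsup hind (fun i => (h3 i).2.2)
    (by intro l hl i; rw [hNV] at hl; exact hperm l hl i) hr
    (fun g hg => hmapV g (hTI g hg))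
  -- a non-identity element of `V^a ∩ N(V^b)`
  have hne : ∃ x : G, x ∈ (VV L).map (MulAut.conj a).toMonoidHom ⊓
      Subgroup.normalizer (((VV L).map (MulAut.conj b).toMonoidHom : Subgroup G) : Set G) ∧
      x ≠ 1 := by
    by_contra hcon
    apply hab
    rw [Subgroup.eq_bot_iff_forall]
    intro x hx
    by_contra hx1
    exact hcon ⟨x, hx, hx1⟩
  obtain ⟨x, hx, hx1⟩ := hne
  obtain ⟨hxa, hxb⟩ := Subgroup.mem_inf.mp hx
  rw [mem_conj] at hxa
  rw [conj_normalizer] at hxb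
  have hg : (VV L).map (MulAut.conj (b⁻¹ * a)).toMonoidHom ⊓
      Subgroup.normalizer (VV L : Set G) ≠ ⊥ := by
    intro h0
    have hmem : b⁻¹ * x * b ∈ (VV L).map (MulAut.conj (b⁻¹ * a)).toMonoidHom ⊓
        Subgroup.normalizer (VV L : Set G) := by
      refine Subgroup.mem_inf.mpr ⟨?_, hxb⟩
      rw [mem_conj]
      have : (b⁻¹ * a)⁻¹ * (b⁻¹ * x * b) * (b⁻¹ * a) = a⁻¹ * x * a := by group
      rw [this]
      exact hxa
    rw [h0, Subgroup.mem_bot] at hmem
    apply hx1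
    have : x = b * (b⁻¹ * x * b) * b⁻¹ := by group
    rw [this, hmem]
    group
  have hcen := hd (b⁻¹ * a) hg
  rw [mem_conj] at hu hv
  have hu' : b⁻¹ * u * b ∈ (VV L).map (MulAut.conj (b⁻¹ * a)).toMonoidHom := by
    rw [mem_conj]
    have : (b⁻¹ * a)⁻¹ * (b⁻¹ * u * b) * (b⁻¹ * a) = a⁻¹ * u * a := by group
    rw [this]
    exact hu
  have h1 := (Subgroup.mem_centralizer_iff.mp (hcen hu')) _ hv
  have h2 : b⁻¹ * (v * u) * b = b⁻¹ * (u * v) * b := by
    calc b⁻¹ * (v * u) * b = b⁻¹ * v * b * (b⁻¹ * u * b) := by group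
      _ = b⁻¹ * u * b * (b⁻¹ * v * b) := h1
      _ = b⁻¹ * (u * v) * b := by group
  have h4 : v * u = u * v := by
    have := congrArg (fun y => b * y * b⁻¹) h2
    simpa [mul_assoc] using this
  exact h4.symm

end Cfsg.Agent.H72.Jk

example : Cfsg.Agent.H28.Jk.StKF1.{u} := Cfsg.Agent.H72.Jk.kf1
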