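import Mathlib
import Cfsg.Prelude.Def_GeometricClasses
import Cfsg.Prelude.Def_Classical
import Cfsg.Agent.H49.Levi
import Cfsg.Agent.H49.GeoGlue

/-!
# S5988 (PΩ⁺_{2d}(q) on elliptic m-spaces), the line `r = p` (helper72)

One uniform witness for every characteristic: `x = diag(A, A⁻ᵀ)` with `A = 1 + E`,
`E = Σ_{i < d/2} E_{i, i + d/2}`.  `N = x - 1` satisfies `N² = 0`, and on `ker N` the form
`Q = Σ u_i w_i` vanishes on the hyperplane `v (inl (d-1)) = 0` (all of `ker N` if `d` is even).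
Hence every `x`-invariant subspace `W` of even dimension contains a totally singular subspace of
dimension `dim W / 2`: with `N_W = N|W`, `range N_W ≤ K' := ker N_W ⊓ ker α`,
`dim ker N_W ≤ dim K' + 1`, so `dim W ≤ 2 dim K' + 1`.  So `x` fixes no elliptic subspace.
-/

set_option autoImplicit false
open scoped MatrixGroups

namespace Cfsg.Agent.H72.Ee

open Matrix Module

section Lin

variable {F : Type*} [Field F]

theorem exists_sub_finrank {V : Type*} [AddCommGroup V] [Module F V] (K : Submodule F V)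
    [FiniteDimensional F K] (k : ℕ) (hk : k ≤ finrank F K) :
    ∃ U : Submodule F V, U ≤ K ∧ finrank F U = k := by
  classical
  let b := Module.finBasis F K
  let f : Fin k → V := fun i => (b (Fin.castLE hk i) : V)
  have hli : LinearIndependent F f := by
    have h1 := b.linearIndependent.comp (Fin.castLE hk) (Fin.castLE_injective hk)
    exact h1.map' K.subtype (Submodule.ker_subtype K)
  refine ⟨Submodule.span F (Set.range f), ?_, ?_⟩
  · rw [Submodule.span_le]
    rintro _ ⟨i, rfl⟩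
    exact (b _).2
  · rw [finrank_span_eq_card hli]
    simp

/-- A subspace meets the kernel of a functional in codimension at most one. -/
theorem finrank_le_inf_ker_add_one {V : Type*} [AddCommGroup V] [Module F V]
    [FiniteDimensional F V] (K : Submodule F V) (α : V →ₗ[F] F) :
    finrank F K ≤ finrank F ↥(K ⊓ LinearMap.ker α) + 1 := by
  have h1 := Submodule.finrank_sup_add_finrank_inf_eq K (LinearMap.ker α)
  have h2 := LinearMap.finrank_range_add_finrank_ker α
  have h3 : finrank F (LinearMap.range α) ≤ 1 := by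
    have := Submodule.finrank_le (LinearMap.range α)
    simpa using this
  have h4 := Submodule.finrank_le (K ⊔ LinearMap.ker α)
  omega

/-- The abstract core: `N² = 0`, `α ∘ N = 0`, `Q = 0` on `ker N ⊓ ker α`; then every subspace
`W` of even dimension with `N W ≤ W` has a `Q`-singular subspace of half its dimension. -/
theorem half_singular {V : Type*} [AddCommGroup V] [Module F V] [FiniteDimensional F V]
    (Q : V → F) (N : V →ₗ[F] V) (α : V →ₗ[F] F)
    (hNN : ∀ v, N (N v) = 0) (hαN : ∀ v, α (N v) = 0)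
    (hQ : ∀ v, N v = 0 → α v = 0 → Q v = 0)
    (W : Submodule F V) (hW : ∀ v ∈ W, N v ∈ W) (hev : Even (finrank F W)) :
    ∃ U : Submodule F V, U ≤ W ∧ (∀ u ∈ U, Q u = 0) ∧ 2 * finrank F U = finrank F W := by
  classical
  let NW : ↥W →ₗ[F] ↥W := N.restrict hW
  let αW : ↥W →ₗ[F] F := α ∘ₗ W.subtype
  let K' : Submodule F ↥W := LinearMap.ker NW ⊓ LinearMap.ker αW
  have h1 := LinearMap.finrank_range_add_finrank_ker NW
  have h2 : finrank F (LinearMap.ker NW) ≤ finrank F ↥K' + 1 :=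
    finrank_le_inf_ker_add_one (LinearMap.ker NW) αW
  have h3 : LinearMap.range NW ≤ K' := by
    rintro _ ⟨w, rfl⟩
    refine ⟨?_, ?_⟩
    · show NW w ∈ LinearMap.ker NW
      rw [LinearMap.mem_ker]
      apply Subtype.ext
      simp only [NW, LinearMap.coe_restrict_apply, Submodule.coe_zero]
      exact hNN _
    · show NW w ∈ LinearMap.ker αW
      rw [LinearMap.mem_ker]
      simp only [αW, NW, LinearMap.comp_apply, Submodule.subtype_apply,
        LinearMap.coe_restrict_apply]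
      exact hαN _
  have h4 : finrank F (LinearMap.range NW) ≤ finrank F ↥K' := Submodule.finrank_mono h3
  obtain ⟨k, hk⟩ := hev
  have h5 : k ≤ finrank F ↥K' := by omega
  obtain ⟨U', hU'K, hU'k⟩ := exists_sub_finrank K' k h5
  refine ⟨U'.map W.subtype, ?_, ?_, ?_⟩
  · rintro _ ⟨u, _, rfl⟩
    exact u.2
  · rintro _ ⟨u, hu, rfl⟩
    have hK := hU'K hu
    have hk1 : NW u = 0 := LinearMap.mem_ker.mp hK.1
    have hk2 : αW u = 0 := LinearMap.mem_ker.mp hK.2
    apply hQ
    · have := congrArg Subtype.val hk1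
      simpa [NW, LinearMap.coe_restrict_apply] using this
    · simpa [αW] using hk2
  · rw [Submodule.finrank_map_subtype_eq, hU'k, hk]
    omega

end Lin

section Conc

variable (d : ℕ) (F : Type*) [Field F]

/-- `E i j = 1` iff `i < d/2` and `j = i + d/2`. -/
def eMat : Matrix (Fin d) (Fin d) F :=
  Matrix.of fun i j => if i.val < d / 2 ∧ j.val = i.val + d / 2 then 1 else 0

theorem eMat_apply (i j : Fin d) :
    eMat d F i j = if i.val < d / 2 ∧ j.val = i.val + d / 2 then 1 else 0 := rfl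

theorem eMat_mul_self : eMat d F * eMat d F = 0 := by
  ext i k
  simp only [Matrix.mul_apply, eMat_apply, Matrix.zero_apply]
  apply Finset.sum_eq_zero
  intro j _
  by_cases h1 : i.val < d / 2 ∧ j.val = i.val + d / 2
  · have h2 : ¬ (j.val < d / 2 ∧ k.val = j.val + d / 2) := by omega
    simp [h2]
  · simp [h1]

/-- `(E u) i = u (i + d/2)` for `i < d/2`. -/
theorem eMat_mulVec_of_lt (u : Fin d → F) (i j : Fin d) (hi : i.val < d / 2)
    (hj : j.val = i.val + d / 2) : (eMat d F *ᵥ u) i = u j := by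
  rw [Matrix.mulVec, dotProduct, Finset.sum_eq_single j]
  · rw [eMat_apply, if_pos ⟨hi, hj⟩, one_mul]
  · intro k _ hk
    have : ¬ (i.val < d / 2 ∧ k.val = i.val + d / 2) := by
      rintro ⟨_, h⟩
      exact hk (Fin.ext (by omega))
    rw [eMat_apply, if_neg this, zero_mul]
  · intro h
    exact absurd (Finset.mem_univ j) h

theorem eMat_mulVec_of_ge (u : Fin d → F) (i : Fin d) (hi : d / 2 ≤ i.val) :
    (eMat d F *ᵥ u) i = 0 := by
  rw [Matrix.mulVec, dotProduct]
  apply Finset.sum_eq_zero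
  intro k _
  have : ¬ (i.val < d / 2 ∧ k.val = i.val + d / 2) := by omega
  rw [eMat_apply, if_neg this, zero_mul]

/-- `(Eᵀ w) j = w i` for `j = i + d/2`, `i < d/2`. -/
theorem eMatT_mulVec_of (w : Fin d → F) (i j : Fin d) (hi : i.val < d / 2)
    (hj : j.val = i.val + d / 2) : ((eMat d F)ᵀ *ᵥ w) j = w i := by
  rw [Matrix.mulVec, dotProduct, Finset.sum_eq_single i]
  · rw [Matrix.transpose_apply, eMat_apply, if_pos ⟨hi, hj⟩, one_mul]
  · intro k _ hk
    have : ¬ (k.val < d / 2 ∧ j.val = k.val + d / 2) := by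
      rintro ⟨_, h⟩
      exact hk (Fin.ext (by omega))
    rw [Matrix.transpose_apply, eMat_apply, if_neg this, zero_mul]
  · intro h
    exact absurd (Finset.mem_univ i) h

theorem one_add_eMat_pow (n : ℕ) : (1 + eMat d F) ^ n = 1 + (n : F) • eMat d F := by
  induction n with
  | zero => simp
  | succ n ih =>
    rw [pow_succ, ih, add_mul, mul_add, mul_add, one_mul, mul_one, smul_mul_assoc,
      eMat_mul_self, smul_zero, add_zero]
    push_cast
    rw [add_smul, one_smul, one_mul]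
    abel

/-- `A = 1 + E ∈ GL_d`. -/
def aGL : GL (Fin d) F :=
  ⟨1 + eMat d F, 1 - eMat d F,
    by rw [add_mul, mul_sub, mul_sub, eMat_mul_self]; simp,
    by rw [sub_mul, mul_add, mul_add, eMat_mul_self]; simp⟩

theorem aGL_coe : ((aGL d F : GL (Fin d) F) : Matrix (Fin d) (Fin d) F) = 1 + eMat d F := rfl

theorem aGL_inv_coe :
    (((aGL d F)⁻¹ : GL (Fin d) F) : Matrix (Fin d) (Fin d) F) = 1 - eMat d F := rfl

theorem aGL_pow (p : ℕ) [CharP F p] : aGL d F ^ p = 1 := by
  apply Units.ext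
  rw [Units.val_pow_eq_pow_val, Units.val_one, aGL_coe, one_add_eMat_pow,
    CharP.cast_eq_zero, zero_smul, add_zero]

theorem det_aGL : ((aGL d F : GL (Fin d) F) : Matrix (Fin d) (Fin d) F).det = 1 := by
  rw [aGL_coe, Matrix.det_of_isUpperTriangular]
  · apply Finset.prod_eq_one
    intro i _
    have : ¬ (i.val < d / 2 ∧ i.val = i.val + d / 2) := by omega
    rw [Matrix.add_apply, Matrix.one_apply_eq, eMat_apply, if_neg this, add_zero]
  · intro i j hij
    have hij' : j.val < i.val := hij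
    have : ¬ (i.val < d / 2 ∧ j.val = i.val + d / 2) := by omega
    rw [Matrix.add_apply, Matrix.one_apply_ne (by intro h; rw [h] at hij'; omega), eMat_apply,
      if_neg this, add_zero]

/-- The witness `x = diag(A, A⁻ᵀ)`. -/
def wit : GL (Fin d ⊕ Fin d) F :=
  ((Cfsg.Agent.H49.leviO d F (aGL d F) :
    ↥(Cfsg.isometryGroup F (⇑(Cfsg.Agent.H49.QP d F)))) : GL (Fin d ⊕ Fin d) F)

theorem wit_coe : ((wit d F : GL (Fin d ⊕ Fin d) F) : Matrix (Fin d ⊕ Fin d) (Fin d ⊕ Fin d) F)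
    = Matrix.fromBlocks (1 + eMat d F) 0 0 (1 - eMat d F)ᵀ := rfl

theorem wit_mem [Fintype F] (hd : 3 ≤ d) :
    wit d F ∈ Cfsg.Geo.omegaGL (Cfsg.quadFormPlus d F) := by
  classical
  refine (Cfsg.Agent.H49.mem_omegaGL_iff (⇑(Cfsg.Agent.H49.QP d F)) _).2
    ⟨Cfsg.Agent.H49.leviO d F (aGL d F), ?_, rfl⟩
  by_cases h2 : (2 : F) = 0
  · exact Cfsg.Agent.H49.leviO_mem_commutator_two d F h2 (Or.inr (by omega)) _
  · rw [Cfsg.Agent.H49.leviO_mem_commutator_iff_odd d F h2, det_aGL]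
    exact IsSquare.one

theorem wit_pow (p : ℕ) [CharP F p] : wit d F ^ p = 1 := by
  unfold wit
  rw [← SubgroupClass.coe_pow, ← map_pow, aGL_pow, map_one]
  rfl

theorem wit_not_scalar (hd : 2 ≤ d) (z : F) :
    ((wit d F : GL (Fin d ⊕ Fin d) F) : Matrix (Fin d ⊕ Fin d) (Fin d ⊕ Fin d) F)
      ≠ z • (1 : Matrix (Fin d ⊕ Fin d) (Fin d ⊕ Fin d) F) := by
  intro h
  have h1 := congrFun (congrFun h (Sum.inl ⟨0, by omega⟩)) (Sum.inl ⟨d / 2, by omega⟩)
  have hne : (⟨0, by omega⟩ : Fin d) ≠ ⟨d / 2, by omega⟩ := by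
    intro h
    have h' := congrArg Fin.val h
    simp only at h'
    omega
  have hne' : (Sum.inl (⟨0, by omega⟩ : Fin d) : Fin d ⊕ Fin d) ≠ Sum.inl ⟨d / 2, by omega⟩ :=
    fun h => hne (Sum.inl.inj h)
  have hE : eMat d F ⟨0, by omega⟩ ⟨d / 2, by omega⟩ = 1 := by
    rw [eMat_apply, if_pos]
    refine ⟨?_, ?_⟩
    · show 0 < d / 2
      omega
    · show d / 2 = 0 + d / 2
      omega
  rw [wit_coe, Matrix.fromBlocks_apply₁₁, Matrix.add_apply, Matrix.smul_apply,
    Matrix.one_apply_ne hne', Matrix.one_apply_ne hne, hE] at h1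
  simp at h1

/-- `N = x - 1`. -/
def nMap : (Fin d ⊕ Fin d → F) →ₗ[F] (Fin d ⊕ Fin d → F) :=
  Matrix.toLin' ((wit d F : GL (Fin d ⊕ Fin d) F) : Matrix (Fin d ⊕ Fin d) (Fin d ⊕ Fin d) F)
    - LinearMap.id

theorem nMap_inl (v : Fin d ⊕ Fin d → F) (j : Fin d) :
    nMap d F v (Sum.inl j) = (eMat d F *ᵥ (v ∘ Sum.inl)) j := by
  have h := congrFun (Cfsg.Agent.H49.fromBlocks_diag_mulVec_inl (1 + eMat d F)
    (1 - eMat d F)ᵀ v) j
  simp only [nMap, LinearMap.sub_apply, Matrix.toLin'_apply, LinearMap.id_apply, Pi.sub_apply,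
    wit_coe]
  rw [Function.comp_apply] at h
  rw [h, Matrix.add_mulVec, Matrix.one_mulVec, Pi.add_apply, Function.comp_apply]
  ring

theorem nMap_inr (v : Fin d ⊕ Fin d → F) (j : Fin d) :
    nMap d F v (Sum.inr j) = -((eMat d F)ᵀ *ᵥ (v ∘ Sum.inr)) j := by
  have h := congrFun (Cfsg.Agent.H49.fromBlocks_diag_mulVec_inr (1 + eMat d F)
    (1 - eMat d F)ᵀ v) j
  simp only [nMap, LinearMap.sub_apply, Matrix.toLin'_apply, LinearMap.id_apply, Pi.sub_apply,
    wit_coe]
  rw [Function.comp_apply] at h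
  rw [h, Matrix.transpose_sub, Matrix.transpose_one, Matrix.sub_mulVec, Matrix.one_mulVec,
    Pi.sub_apply, Function.comp_apply]
  ring

theorem nMap_nMap (v : Fin d ⊕ Fin d → F) : nMap d F (nMap d F v) = 0 := by
  funext s
  rcases s with j | j
  · rw [nMap_inl]
    have : (nMap d F v) ∘ Sum.inl = eMat d F *ᵥ (v ∘ Sum.inl) := by
      funext k
      exact nMap_inl d F v k
    rw [this, Matrix.mulVec_mulVec, eMat_mul_self, Matrix.zero_mulVec]
    rfl
  · rw [nMap_inr]
    have : (nMap d F v) ∘ Sum.inr = -((eMat d F)ᵀ *ᵥ (v ∘ Sum.inr)) := by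
      funext k
      exact nMap_inr d F v k
    rw [this, Matrix.mulVec_neg, Matrix.mulVec_mulVec, ← Matrix.transpose_mul, eMat_mul_self,
      Matrix.transpose_zero, Matrix.zero_mulVec]
    simp

/-- The functional `v ↦ v (inl (d-1))` if `d` is odd, `0` if `d` is even. -/
def alpha (hd : 0 < d) : (Fin d ⊕ Fin d → F) →ₗ[F] F :=
  if 2 * (d / 2) < d then LinearMap.proj (Sum.inl (⟨d - 1, by omega⟩ : Fin d)) else 0

theorem alpha_nMap (hd : 0 < d) (v : Fin d ⊕ Fin d → F) : alpha d F hd (nMap d F v) = 0 := by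
  unfold alpha
  split_ifs with h
  · rw [LinearMap.proj_apply, nMap_inl]
    exact eMat_mulVec_of_ge d F _ _ (by simp; omega)
  · rfl

theorem quad_eq_zero (hd : 0 < d) (v : Fin d ⊕ Fin d → F) (hN : nMap d F v = 0)
    (hα : alpha d F hd v = 0) : Cfsg.quadFormPlus d F v = 0 := by
  unfold Cfsg.quadFormPlus
  apply Finset.sum_eq_zero
  intro i _
  by_cases h1 : i.val < d / 2
  · -- `v (inr i) = 0`
    have hk : i.val + d / 2 < d := by omega
    have h2 := nMap_inr d F v ⟨i.val + d / 2, hk⟩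
    rw [hN, eMatT_mulVec_of d F (v ∘ Sum.inr) i ⟨i.val + d / 2, hk⟩ h1 rfl] at h2
    have h3 : v (Sum.inr i) = 0 := by
      have : (0 : F) = -v (Sum.inr i) := by simpa using h2
      exact neg_eq_zero.mp this.symm
    rw [h3, mul_zero]
  · by_cases h2 : i.val < 2 * (d / 2)
    · -- `v (inl i) = 0`
      have hk : i.val - d / 2 < d := by omega
      have h3 := nMap_inl d F v ⟨i.val - d / 2, hk⟩
      rw [hN, eMat_mulVec_of_lt d F (v ∘ Sum.inl) ⟨i.val - d / 2, hk⟩ i (by simp; omega)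
        (by simp; omega)] at h3
      have h4 : v (Sum.inl i) = 0 := by simpa using h3.symm
      rw [h4, zero_mul]
    · -- `i = d - 1`, `d` odd
      have h3 : 2 * (d / 2) < d := by omega
      have h4 : i = (⟨d - 1, by omega⟩ : Fin d) := Fin.ext (by simp; omega)
      unfold alpha at hα
      rw [if_pos h3, LinearMap.proj_apply] at hα
      rw [h4, hα, zero_mul]

/-- Every `x`-invariant subspace of even dimension is of plus type. -/
theorem wit_plus (hd : 0 < d) (W : Submodule F (Fin d ⊕ Fin d → F))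
    (hev : Even (Module.finrank F ↥W))
    (hinv : W.map (Matrix.toLin' ((wit d F : GL (Fin d ⊕ Fin d) F) :
      Matrix (Fin d ⊕ Fin d) (Fin d ⊕ Fin d) F)) ≤ W) :
    Cfsg.Geo.IsPlusTypeOn (Cfsg.quadFormPlus d F) W := by
  obtain ⟨U, hUW, hU0, hUd⟩ := half_singular (Cfsg.quadFormPlus d F) (nMap d F) (alpha d F hd)
    (nMap_nMap d F) (alpha_nMap d F hd) (quad_eq_zero d F hd) W (fun v hv => by
      have h1 : Matrix.toLin' ((wit d F : GL (Fin d ⊕ Fin d) F) :
          Matrix (Fin d ⊕ Fin d) (Fin d ⊕ Fin d) F) v ∈ W := hinv ⟨v, hv, rfl⟩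
      exact W.sub_mem h1 hv) hev
  exact ⟨U, hUW, hU0, hUd⟩

end Conc

/-- **S5988, `r = p` (any characteristic)**: an element of order `p` of `Ω⁺_{2d}(F)` (not a
scalar, `x ^ p = 1`) all of whose invariant subspaces of even dimension are of plus type. -/
theorem pWit {F : Type*} [Field F] [Fintype F] {p : ℕ} [Fact p.Prime] [CharP F p] (d : ℕ)
    (hd : 3 ≤ d) :
    ∃ x : GL (Fin d ⊕ Fin d) F, x ∈ Cfsg.Geo.omegaGL (Cfsg.quadFormPlus d F) ∧ x ^ p = 1 ∧
      (∀ z : F, (x : Matrix (Fin d ⊕ Fin d) (Fin d ⊕ Fin d) F)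
        ≠ z • (1 : Matrix (Fin d ⊕ Fin d) (Fin d ⊕ Fin d) F)) ∧
      ∀ W : Submodule F (Fin d ⊕ Fin d → F), Even (Module.finrank F ↥W) →
        W.map (Matrix.toLin' (x : Matrix (Fin d ⊕ Fin d) (Fin d ⊕ Fin d) F)) ≤ W →
        Cfsg.Geo.IsPlusTypeOn (Cfsg.quadFormPlus d F) W :=
  ⟨wit d F, wit_mem d F (by omega), wit_pow d F p, wit_not_scalar d F (by omega),
    fun W hev hinv => wit_plus d F (by omega) W hev hinv⟩

/-- **S5988, `r = p`, in the frozen shape**: not every element of order `p` (mod scalars) of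
`Ω⁺_{2d}(F)` fixes an elliptic `m`-space (`m` even). -/
theorem notAll {F : Type*} [Field F] [Fintype F] {p : ℕ} [Fact p.Prime] [CharP F p] (d m : ℕ)
    (hd : 4 ≤ d) (hme : Even m) :
    ¬ (∀ x : GL (Fin d ⊕ Fin d) F, x ∈ Cfsg.Geo.omegaGL (Cfsg.quadFormPlus d F) →
      (∃ z : F, ((x ^ p : GL (Fin d ⊕ Fin d) F) : Matrix (Fin d ⊕ Fin d) (Fin d ⊕ Fin d) F) = z • (1 : Matrix (Fin d ⊕ Fin d) (Fin d ⊕ Fin d) F)) →
      (∀ z : F, (x : Matrix (Fin d ⊕ Fin d) (Fin d ⊕ Fin d) F) ≠ z • (1 : Matrix (Fin d ⊕ Fin d) (Fin d ⊕ Fin d) F)) →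
      ∃ W : Submodule F (Fin d ⊕ Fin d → F), (Module.finrank F ↥W = m ∧ Cfsg.Geo.IsNondegenerateOn (QuadraticMap.polar (Cfsg.quadFormPlus d F)) W ∧ ¬ Cfsg.Geo.IsPlusTypeOn (Cfsg.quadFormPlus d F) W) ∧ W.map (Matrix.toLin' (x : Matrix (Fin d ⊕ Fin d) (Fin d ⊕ Fin d) F)) ≤ W) := by
  intro hall
  obtain ⟨x, hxΩ, hxp, hxs, hxW⟩ := pWit (F := F) (p := p) d (by omega)
  obtain ⟨W, ⟨hWm, -, hWnp⟩, hWinv⟩ := hall x hxΩ ⟨1, by rw [hxp, one_smul]; rfl⟩ hxs
  exact hWnp (hxW W (by rw [hWm]; exact hme) hWinv)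

end Cfsg.Agent.H72.Ee
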