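import Mathlib
import Cfsg.Agent.H72.EeWit
import Cfsg.Agent.H42.AltRank
import Cfsg.Agent.H48.EpDefs

/-!
# S5974 / S5990 (r = p = 2, negative direction): the a-type involution witness (helper72)

`wit d F = diag(A, A⁻ᵀ)` of `H72/EeWit.lean`, `N = x - 1`: `N ∘ N = 0`, `polar v (N v) = 0`
(a-type, uniform in the characteristic), and for `d` even `Q = 0` on `ker N`.

* `dim_four` (abstract): `B` symmetric, `N ∘ N = 0`, `B x (N x) = 0`, `ker N` totally isotropic;
  then every `N`-stable `B`-nondegenerate subspace `W` has `4 ∣ dim W`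
  (`β (x, y) = B x (N y)` is alternating on `W` with radical `ker (N|W)`, so `rank (N|W)` is
  even; `ker (N|W)` is totally isotropic, so `2 dim ker (N|W) ≤ dim W`; `range ≤ ker`).
* `wit_dim4`: `d` even ⇒ every `wit`-invariant nondegenerate `W` has `4 ∣ finrank W`.
* `two_wit_plus`: characteristic 2, `d` even, `m % 4 = 2`: an involution of `Ω⁺_{2d}(F)` (not
  scalar) without invariant nondegenerate `m`-space; in particular `¬ H48.Ep.FixP F d m x`.
-/

set_option autoImplicit false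
open scoped MatrixGroups

namespace Cfsg.Agent.H72.Ee

open Matrix Module

section Lin2

variable {F : Type*} [Field F]

theorem dim_four {V : Type*} [AddCommGroup V] [Module F V] [FiniteDimensional F V]
    (B : LinearMap.BilinForm F V) (hsym : ∀ x y, B x y = B y x) (N : V →ₗ[F] V)
    (hNN : ∀ v, N (N v) = 0) (halt : ∀ x, B x (N x) = 0)
    (hK : ∀ x y, N x = 0 → N y = 0 → B x y = 0)
    (W : Submodule F V) (hW : ∀ v ∈ W, N v ∈ W)
    (hnd : ∀ w ∈ W, (∀ x ∈ W, B w x = 0) → w = 0) :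
    4 ∣ finrank F W := by
  classical
  let NW : ↥W →ₗ[F] ↥W := N.restrict hW
  have hNW : ∀ x : ↥W, ((NW x : ↥W) : V) = N (x : V) := fun x => rfl
  have hskew : ∀ x y, B x (N y) = -B y (N x) := by
    intro x y
    have h := halt (x + y)
    simp only [map_add, LinearMap.add_apply] at h
    rw [halt x, halt y] at h
    linear_combination h
  let ω : ↥W →ₗ[F] ↥W →ₗ[F] F := B.compl₁₂ W.subtype (N ∘ₗ W.subtype)
  have hω : ∀ x y : ↥W, ω x y = B (x : V) (N (y : V)) := fun x y => rfl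
  have hker : LinearMap.ker ω = LinearMap.ker NW := by
    ext x
    rw [LinearMap.mem_ker, LinearMap.mem_ker]
    constructor
    · intro hx
      apply Subtype.ext
      rw [hNW, Submodule.coe_zero]
      apply hnd _ (hW _ x.2)
      intro y hy
      have h1 : ω x ⟨y, hy⟩ = 0 := by rw [hx]; rfl
      rw [hω] at h1
      rw [hsym, hskew, h1, neg_zero]
    · intro hx
      have hx' : N (x : V) = 0 := by
        rw [← hNW, hx]; rfl
      ext y
      rw [hω, hskew, hx', map_zero, neg_zero]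
      rfl
  have h1 := Cfsg.Agent.H42.alt_even_aux (F := F) (finrank F ↥W) ↥W ω
    (fun x => by rw [hω]; exact halt _) rfl
  rw [hker] at h1
  have h2 := LinearMap.finrank_range_add_finrank_ker NW
  have h3 : LinearMap.range NW ≤ LinearMap.ker NW := by
    rintro _ ⟨w, rfl⟩
    rw [LinearMap.mem_ker]
    apply Subtype.ext
    rw [hNW, hNW, Submodule.coe_zero]
    exact hNN _
  have h4 := Submodule.finrank_mono h3
  let BW : LinearMap.BilinForm F ↥W := B.compl₁₂ W.subtype W.subtype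
  have hBW : ∀ x y : ↥W, BW x y = B (x : V) (y : V) := fun x y => rfl
  have hBWnd : BW.Nondegenerate := by
    refine ⟨fun x hx => ?_, fun y hy => ?_⟩
    · apply Subtype.ext
      rw [Submodule.coe_zero]
      apply hnd _ x.2
      intro z hz
      have := hx ⟨z, hz⟩
      rwa [hBW] at this
    · apply Subtype.ext
      rw [Submodule.coe_zero]
      apply hnd _ y.2
      intro z hz
      have := hy ⟨z, hz⟩
      rw [hBW] at this
      rw [hsym]
      exact this
  have h5 := LinearMap.BilinForm.finrank_orthogonal hBWnd (LinearMap.ker NW)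
  have h6 : LinearMap.ker NW ≤ BW.orthogonal (LinearMap.ker NW) := by
    intro x hx
    rw [LinearMap.BilinForm.mem_orthogonal_iff]
    intro y hy
    show BW y x = 0
    rw [hBW]
    apply hK
    · rw [← hNW, LinearMap.mem_ker.mp hy]; rfl
    · rw [← hNW, LinearMap.mem_ker.mp hx]; rfl
  have h7 := Submodule.finrank_mono h6
  obtain ⟨k, hk⟩ := h1
  omega

end Lin2

section Conc2

variable (d : ℕ) (F : Type*) [Field F]

theorem polar_nMap (v : Fin d ⊕ Fin d → F) :
    QuadraticMap.polar (Cfsg.quadFormPlus d F) v (nMap d F v) = 0 := by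
  have h := Cfsg.Agent.H49.polar_QP d F v (nMap d F v)
  rw [Cfsg.Agent.H49.QP_coe] at h
  rw [h]
  have e1 : ∀ i : Fin d, v (Sum.inl i) * nMap d F v (Sum.inr i)
      + nMap d F v (Sum.inl i) * v (Sum.inr i)
      = (eMat d F *ᵥ (v ∘ Sum.inl)) i * (v ∘ Sum.inr) i
        - (v ∘ Sum.inl) i * ((eMat d F)ᵀ *ᵥ (v ∘ Sum.inr)) i := by
    intro i
    rw [nMap_inl, nMap_inr]
    simp only [Function.comp_apply]
    ring
  simp only [e1]
  rw [Finset.sum_sub_distrib]
  have e2 : ∑ i, (v ∘ Sum.inl) i * ((eMat d F)ᵀ *ᵥ (v ∘ Sum.inr)) i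
      = (v ∘ Sum.inl) ⬝ᵥ ((eMat d F)ᵀ *ᵥ (v ∘ Sum.inr)) := rfl
  have e3 : ∑ i, (eMat d F *ᵥ (v ∘ Sum.inl)) i * (v ∘ Sum.inr) i
      = (eMat d F *ᵥ (v ∘ Sum.inl)) ⬝ᵥ (v ∘ Sum.inr) := rfl
  rw [e2, e3, Matrix.dotProduct_mulVec, Matrix.vecMul_transpose, sub_self]

theorem alpha_eq_zero_of_even (hd : 0 < d) (hev : Even d) (v : Fin d ⊕ Fin d → F) :
    alpha d F hd v = 0 := by
  unfold alpha
  have : ¬ (2 * (d / 2) < d) := by
    obtain ⟨k, hk⟩ := hev
    omega
  rw [if_neg this]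
  rfl

/-- `d` even: every `wit`-invariant subspace with nondegenerate polar form has dimension
divisible by `4`. -/
theorem wit_dim4 (hd : 0 < d) (hev : Even d) (W : Submodule F (Fin d ⊕ Fin d → F))
    (hnd : ∀ u ∈ W, u ≠ 0 → ∃ v ∈ W, QuadraticMap.polar (Cfsg.quadFormPlus d F) u v ≠ 0)
    (hinv : W.map (Matrix.toLin' ((wit d F : GL (Fin d ⊕ Fin d) F) :
      Matrix (Fin d ⊕ Fin d) (Fin d ⊕ Fin d) F)) ≤ W) :
    4 ∣ Module.finrank F ↥W := by
  have hB : ∀ x y, QuadraticMap.polarBilin (Cfsg.Agent.H49.QP d F) x y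
      = QuadraticMap.polar (Cfsg.quadFormPlus d F) x y := fun x y => rfl
  refine dim_four (QuadraticMap.polarBilin (Cfsg.Agent.H49.QP d F)) ?_ (nMap d F)
    (nMap_nMap d F) ?_ ?_ W ?_ ?_
  · intro x y
    rw [hB, hB, QuadraticMap.polar_comm]
  · intro x
    rw [hB]
    exact polar_nMap d F x
  · intro x y hx hy
    rw [hB]
    unfold QuadraticMap.polar
    rw [quad_eq_zero d F hd x hx (alpha_eq_zero_of_even d F hd hev x),
      quad_eq_zero d F hd y hy (alpha_eq_zero_of_even d F hd hev y),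
      quad_eq_zero d F hd (x + y) (by rw [map_add, hx, hy, add_zero])
        (alpha_eq_zero_of_even d F hd hev (x + y))]
    simp
  · intro v hv
    have h1 : Matrix.toLin' ((wit d F : GL (Fin d ⊕ Fin d) F) :
        Matrix (Fin d ⊕ Fin d) (Fin d ⊕ Fin d) F) v ∈ W := hinv ⟨v, hv, rfl⟩
    exact W.sub_mem h1 hv
  · intro w hw hall
    by_contra hne
    obtain ⟨v, hv, hvne⟩ := hnd w hw hne
    exact hvne (by rw [← hB]; exact hall v hv)

end Conc2

/-- **S5974, `r = p = 2`, `d` even, `m ≡ 2 (mod 4)`**: an involution of `Ω⁺_{2d}(F)`, not a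
scalar, with no invariant `m`-space with nondegenerate polar form (one-sided frozen condition);
in particular it fixes no nondegenerate plus-type `m`-space. -/
theorem two_wit {F : Type*} [Field F] [Fintype F] [CharP F 2] (d m : ℕ) (hd : 3 ≤ d)
    (hev : Even d) (hm : m % 4 = 2) :
    ∃ x : GL (Fin d ⊕ Fin d) F, x ∈ Cfsg.Geo.omegaGL (Cfsg.quadFormPlus d F) ∧ x ^ 2 = 1 ∧
      (∀ z : F, (x : Matrix (Fin d ⊕ Fin d) (Fin d ⊕ Fin d) F)
        ≠ z • (1 : Matrix (Fin d ⊕ Fin d) (Fin d ⊕ Fin d) F)) ∧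
      ∀ W : Submodule F (Fin d ⊕ Fin d → F), Module.finrank F ↥W = m →
        (∀ u ∈ W, u ≠ 0 → ∃ v ∈ W, QuadraticMap.polar (Cfsg.quadFormPlus d F) u v ≠ 0) →
        ¬ W.map (Matrix.toLin' (x : Matrix (Fin d ⊕ Fin d) (Fin d ⊕ Fin d) F)) ≤ W := by
  refine ⟨wit d F, wit_mem d F hd, wit_pow d F 2, wit_not_scalar d F (by omega), ?_⟩
  intro W hWm hnd hinv
  have h4 := wit_dim4 d F (by omega) hev W hnd hinv
  omega

universe u

/-- The same in the vocabulary of helper48's `EpDefs`: `¬ FixP F d m x`. -/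
theorem two_wit_plus {F : Type u} [Field F] [Fintype F] [CharP F 2] (d m : ℕ) (hd : 3 ≤ d)
    (hev : Even d) (hm : m % 4 = 2) :
    ∃ x : GL (Fin d ⊕ Fin d) F, x ∈ Cfsg.Geo.omegaGL (Cfsg.quadFormPlus d F) ∧ x ^ 2 = 1 ∧
      (∀ z : F, (x : Matrix (Fin d ⊕ Fin d) (Fin d ⊕ Fin d) F)
        ≠ z • (1 : Matrix (Fin d ⊕ Fin d) (Fin d ⊕ Fin d) F)) ∧
      ¬ Cfsg.Agent.H48.Ep.FixP F d m x := by
  obtain ⟨x, hxΩ, hx2, hxs, hxW⟩ := two_wit (F := F) d m hd hev hm
  refine ⟨x, hxΩ, hx2, hxs, ?_⟩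
  rintro ⟨W, ⟨hWm, hnd, -⟩, hinv⟩
  exact hxW W hWm hnd hinv

end Cfsg.Agent.H72.Ee
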