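import Mathlib
import Cfsg.Agent.H42.TiDefs

/-!
# S5955 piece SPI-HALF (helper72)
-/

set_option autoImplicit false

namespace Cfsg.Agent.H72.Ti

open Cfsg.Agent.H45 Cfsg.Agent.H42.Spd Cfsg.Agent.H42.Spn Cfsg.Agent.H42.Ti Module

universe u v

theorem tiHalf : StTiHalf.{u, v} := by
  intro F _ _ V _ _ _ B T _ K U hK hUK hTI
  let UK : Submodule F K := U.comap K.subtype
  have e : UK ≃ₗ[F] U := Submodule.comapSubtypeEquivOfLe hUK
  let ψ : U →ₗ[F] Module.Dual F K :=
    { toFun := fun y => (B.flip (y : V)).comp K.subtype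
      map_add' := by intro a b; ext k; simp
      map_smul' := by intro c a; ext k; simp }
  have hψ : ∀ (y : U) (k : K), ψ y k = B (k : V) (y : V) := fun y k => rfl
  have hinj : Function.Injective ψ := by
    rw [← LinearMap.ker_eq_bot, LinearMap.ker_eq_bot']
    intro y hy
    have h1 : (y : V) ∈ K ⊓ perp B K := by
      refine ⟨hUK y.2, ?_⟩
      intro k hk
      have := congrArg (fun f : Module.Dual F K => f ⟨k, hk⟩) hy
      simpa [hψ] using this
    rw [hK, Submodule.mem_bot] at h1
    exact Subtype.ext h1
  have hrange : LinearMap.range ψ ≤ UK.dualAnnihilator := by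
    rintro _ ⟨y, rfl⟩
    rw [Submodule.mem_dualAnnihilator]
    intro k hk
    rw [hψ]
    exact hTI k hk y y.2
  have h1 : Module.finrank F U = Module.finrank F (LinearMap.range ψ) :=
    (LinearMap.finrank_range_of_inj hinj).symm
  have h2 := Submodule.finrank_mono hrange
  have h3 := Subspace.finrank_add_finrank_dualAnnihilator_eq UK
  have h4 : Module.finrank F UK = Module.finrank F U := e.finrank_eq
  omega

example : StTiHalf.{u, v} := tiHalf

end Cfsg.Agent.H72.Ti
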