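import Mathlib
import Cfsg.Agent.H42.TiDefs

/-!
# S5955 piece SPI-SPREAD (helper72)
-/

set_option autoImplicit false

namespace Cfsg.Agent.H72.Ti

open Cfsg.Agent.H42.Ti

universe u

theorem tiSpread : StTiSpread.{u} := by
  classical
  intro α S A hS
  by_cases hA : A ≤ S.card
  · obtain ⟨T, hTS, hTc⟩ := Finset.exists_subset_card_eq hA
    refine ⟨fun x => if x ∈ T then 1 else 0, ?_, ?_⟩
    · rw [Finset.sum_ite_mem, Finset.sum_const, smul_eq_mul, mul_one,
        Finset.inter_eq_right.mpr hTS, hTc]
    · rw [if_pos hA]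
      refine le_of_eq (Finset.sum_eq_zero ?_)
      intro x _
      by_cases hx : x ∈ T
      · simp [hx]
      · simp [hx]
  · rw [not_le] at hA
    obtain ⟨x₀, hx₀⟩ := Finset.card_pos.mp hS
    refine ⟨fun x => if x = x₀ then A - S.card + 1 else 1, ?_, ?_⟩
    · rw [← Finset.add_sum_erase S _ hx₀, if_pos rfl]
      have h1 : ∑ x ∈ S.erase x₀, (if x = x₀ then A - S.card + 1 else 1) = S.card - 1 := by
        rw [Finset.sum_congr rfl (g := fun _ => 1)]
        · simp [Finset.card_erase_of_mem hx₀]
        · intro x hx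
          rw [if_neg (Finset.ne_of_mem_erase hx)]
      rw [h1]
      omega
    · rw [if_neg (by omega)]
      rw [← Finset.add_sum_erase S _ hx₀]
      have h1 : ∑ x ∈ S.erase x₀, (if x = x₀ then A - S.card + 1 else 1) / 2 = 0 := by
        refine Finset.sum_eq_zero ?_
        intro x hx
        rw [if_neg (Finset.ne_of_mem_erase hx)]
        rfl
      simp only [if_true]
      rw [h1]
      omega

example : StTiSpread.{u} := tiSpread

end Cfsg.Agent.H72.Ti
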