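import Mathlib
import Cfsg.Agent.H88.AltFDefs

/-!
# S5165 piece S5165-DQ (helper72): `dEl u` is a product of even `p`-elements normalizing `subQ`
-/

set_option autoImplicit false

namespace Cfsg.Agent.H72.AltF

open Cfsg Cfsg.Agent.H88.AltF

section square

variable {p : ℕ}

/-- The shear `(k, x) ↦ (k + t x, x)`. -/
def shA (t : ZMod p) : Equiv.Perm (ZMod p × ZMod p) where
  toFun v := (v.1 + t * v.2, v.2)
  invFun v := (v.1 - t * v.2, v.2)
  left_inv v := by ext <;> simp
  right_inv v := by ext <;> simp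

/-- The shear `(k, x) ↦ (k, x + t k)`. -/
def shB (t : ZMod p) : Equiv.Perm (ZMod p × ZMod p) where
  toFun v := (v.1, v.2 + t * v.1)
  invFun v := (v.1, v.2 - t * v.1)
  left_inv v := by ext <;> simp
  right_inv v := by ext <;> simp

theorem shA_apply (t : ZMod p) (v : ZMod p × ZMod p) : shA t v = (v.1 + t * v.2, v.2) := rfl

theorem shB_apply (t : ZMod p) (v : ZMod p × ZMod p) : shB t v = (v.1, v.2 + t * v.1) := rfl

theorem shA_add (t : ZMod p) (a b : ZMod p × ZMod p) : shA t (a + b) = shA t a + shA t b := by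
  rw [shA_apply, shA_apply, shA_apply]
  ext
  · simp only [Prod.fst_add, Prod.snd_add]; ring
  · simp

theorem shB_add (t : ZMod p) (a b : ZMod p × ZMod p) : shB t (a + b) = shB t a + shB t b := by
  rw [shB_apply, shB_apply, shB_apply]
  ext
  · simp
  · simp only [Prod.fst_add, Prod.snd_add]; ring

theorem shA_pow (t : ZMod p) (n : ℕ) (v : ZMod p × ZMod p) :
    (shA t ^ n) v = (v.1 + n * t * v.2, v.2) := by
  induction n with
  | zero => simp
  | succ n ih =>
    rw [pow_succ', Equiv.Perm.mul_apply, ih, shA_apply]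
    ext
    · simp only; push_cast; ring
    · rfl

theorem shB_pow (t : ZMod p) (n : ℕ) (v : ZMod p × ZMod p) :
    (shB t ^ n) v = (v.1, v.2 + n * t * v.1) := by
  induction n with
  | zero => simp
  | succ n ih =>
    rw [pow_succ', Equiv.Perm.mul_apply, ih, shB_apply]
    ext
    · rfl
    · simp only; push_cast; ring

theorem shA_pow_p (t : ZMod p) : shA t ^ p = 1 := by
  refine Equiv.ext (fun v => ?_)
  rw [shA_pow]
  simp

theorem shB_pow_p (t : ZMod p) : shB t ^ p = 1 := by
  refine Equiv.ext (fun v => ?_)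
  rw [shB_pow]
  simp

/-- The diagonal map as a product of shears. -/
theorem diag_eq (u : (ZMod p)ˣ) :
    (Equiv.prodCongr (Units.mulLeft u⁻¹) (Units.mulLeft u) : Equiv.Perm (ZMod p × ZMod p)) =
      shA (↑u⁻¹ : ZMod p) * shB (-(u : ZMod p)) * shA (↑u⁻¹ : ZMod p) *
        (shA 1 * shB (-1) * shA 1)⁻¹ := by
  rw [eq_mul_inv_iff_mul_eq]
  refine Equiv.ext (fun v => ?_)
  have hab : (u : ZMod p) * (↑u⁻¹ : ZMod p) = 1 := Units.mul_inv u
  obtain ⟨k, x⟩ := v
  simp only [Equiv.Perm.mul_apply, shA_apply, shB_apply, Equiv.prodCongr_apply, Prod.map,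
    Units.mulLeft_apply]
  ext
  · simp only
    linear_combination (k + (↑u⁻¹ : ZMod p) * x) * hab
  · simp only
    linear_combination x * hab

end square

theorem mem_normalizer_closure {G : Type*} [Group G] (S : Set G) (y : G)
    (h1 : ∀ s ∈ S, y * s * y⁻¹ ∈ Subgroup.closure S)
    (h2 : ∀ s ∈ S, y⁻¹ * s * y ∈ Subgroup.closure S) :
    y ∈ Subgroup.normalizer ((Subgroup.closure S : Subgroup G) : Set G) := by
  have key : ∀ z : G, (∀ s ∈ S, z * s * z⁻¹ ∈ Subgroup.closure S) →
      ∀ h ∈ Subgroup.closure S, z * h * z⁻¹ ∈ Subgroup.closure S := by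
    intro z hz h hh
    have hle : Subgroup.closure S ≤ (Subgroup.closure S).comap (MulAut.conj z).toMonoidHom := by
      rw [Subgroup.closure_le]
      intro s hs
      exact hz s hs
    exact hle hh
  rw [Subgroup.mem_normalizer_iff]
  intro h
  constructor
  · exact key y h1 h
  · intro hh
    have := key y⁻¹ (by simpa using h2) _ hh
    simpa [mul_assoc] using this

theorem dQ : StmtDQ := by
  intro I E _ _ _ _ _ p _ hp2 j u
  classical
  have hp : p.Prime := Fact.out
  have hodd : Odd p := hp.odd_of_ne_two hp2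
  -- a shear of the square gives a generator of `pGen`
  have hgen : ∀ Y : Equiv.Perm (ZMod p × ZMod p), (∀ a b, Y (a + b) = Y a + Y b) → Y ^ p = 1 →
      sqP E j Y ∈ pGen p (subQ E j) := by
    intro Y hadd hYp
    have hYinv : ∀ a b, Y⁻¹ (a + b) = Y⁻¹ a + Y⁻¹ b := by
      intro a b
      apply Y.injective
      rw [hadd]
      simp
    have hyp : sqP E j Y ^ p = 1 := by rw [← map_pow, hYp, map_one]
    -- conjugation of the generators of `subQ`
    have hconj : ∀ Z : Equiv.Perm (ZMod p × ZMod p), (∀ a b, Z (a + b) = Z a + Z b) →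
        ∀ s ∈ (Set.range (fun v : ZMod p × ZMod p => sqP E j (Equiv.addRight v)) ∪
          {g | ∃ f : I → ZMod p, (∀ k, f (j k) = 0) ∧ fibP E f = g}),
        sqP E j Z * s * (sqP E j Z)⁻¹ ∈ subQ E j := by
      intro Z hZ s hs
      rcases hs with ⟨v, rfl⟩ | ⟨f, hf, rfl⟩
      · have e1 : sqP E j Z * sqP E j (Equiv.addRight v) * (sqP E j Z)⁻¹ =
            sqP E j (Equiv.addRight (Z v)) := by
          rw [← map_inv, ← map_mul, ← map_mul]
          congr 1
          refine Equiv.ext (fun z => ?_)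
          simp only [Equiv.Perm.mul_apply, Equiv.coe_addRight]
          rw [hZ]
          simp
        rw [e1]
        exact Subgroup.subset_closure (Or.inl ⟨Z v, rfl⟩)
      · have e1 : sqP E j Z * fibP E f = fibP E f * sqP E j Z := by
          refine Equiv.ext (fun z => ?_)
          rcases z with ⟨i, x⟩ | e
          · by_cases hi : i ∈ Set.range j
            · obtain ⟨k, rfl⟩ := hi
              simp only [Equiv.Perm.mul_apply, fibP_inl, hf, add_zero, sqP_apply]
            · simp only [Equiv.Perm.mul_apply, fibP_inl]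
              rw [sqP_apply_of_notMem E j Z i hi, sqP_apply_of_notMem E j Z i hi, fibP_inl]
          · simp only [Equiv.Perm.mul_apply, fibP_inr, sqP_apply_inr]
        rw [e1, mul_inv_cancel_right]
        exact Subgroup.subset_closure (Or.inr ⟨f, hf, rfl⟩)
    refine Subgroup.subset_closure ⟨?_, ?_, ?_⟩
    · -- sign
      have h1 : Equiv.Perm.sign (sqP E j Y) ^ p = 1 := by rw [← map_pow, hyp, map_one]
      rcases Int.units_eq_one_or (Equiv.Perm.sign (sqP E j Y)) with h | h
      · exact h
      · rw [h, hodd.neg_one_pow] at h1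
        exact absurd h1 (by decide)
    · -- normalizer
      refine mem_normalizer_closure _ _ (hconj Y hadd) ?_
      intro s hs
      have := hconj Y⁻¹ hYinv s hs
      rwa [map_inv, inv_inv] at this
    · -- order
      have hdvd : orderOf (sqP E j Y) ∣ p := orderOf_dvd_of_pow_eq_one hyp
      rcases (Nat.dvd_prime hp).mp hdvd with h | h
      · exact ⟨0, by rw [h, pow_zero]⟩
      · exact ⟨1, by rw [h, pow_one]⟩
  have hA : ∀ t : ZMod p, sqP E j (shA t) ∈ pGen p (subQ E j) :=
    fun t => hgen _ (shA_add t) (shA_pow_p t)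
  have hB : ∀ t : ZMod p, sqP E j (shB t) ∈ pGen p (subQ E j) :=
    fun t => hgen _ (shB_add t) (shB_pow_p t)
  unfold dEl
  rw [diag_eq u]
  simp only [map_mul, map_inv]
  exact Subgroup.mul_mem _ (Subgroup.mul_mem _ (Subgroup.mul_mem _ (hA _) (hB _)) (hA _))
    (Subgroup.inv_mem _ (Subgroup.mul_mem _ (Subgroup.mul_mem _ (hA _) (hB _)) (hA _)))

example : StmtDQ := dQ

end Cfsg.Agent.H72.AltF
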