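import Mathlib
import Cfsg.Agent.H88.AltFDefs

/-!
# S5165 piece S5165-NORMB (helper72): the normalizer of the base group is monomial
-/

set_option autoImplicit false

namespace Cfsg.Agent.H72.AltF

open Cfsg Cfsg.Agent.H88.AltF

theorem normB : StmtNormB := by
  intro I E _ _ _ _ _ p _ g hg
  classical
  have hp : p.Prime := Fact.out
  have hne : NeZero p := ⟨hp.ne_zero⟩
  have h10 : (1 : ZMod p) ≠ 0 := one_ne_zero
  -- elements of the normalizer map `inl` points to `inl` points
  have hinl : ∀ g' : Equiv.Perm (Pt I E p),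
      g' ∈ Subgroup.normalizer ((baseB I E p : Subgroup (Equiv.Perm (Pt I E p))) :
        Set (Equiv.Perm (Pt I E p))) →
      ∀ (i : I) (x : ZMod p), ∃ k y, g' (Sum.inl (i, x)) = Sum.inl (k, y) := by
    intro g' hg' i x
    have h1 := (Subgroup.mem_normalizer_iff.mp hg' (fibP E (Pi.single i 1))).mp
      (fibP_mem_baseB E _)
    obtain ⟨h, hh⟩ := h1
    rcases hgx : g' (Sum.inl (i, x)) with ⟨k, y⟩ | e
    · exact ⟨k, y, rfl⟩
    · exfalso
      have h2 : fibP E h (g' (Sum.inl (i, x))) =
          g' (fibP E (Pi.single i 1) (Sum.inl (i, x))) := by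
        rw [hh]; simp
      rw [hgx, fibP_inr, ← hgx] at h2
      have h3 := g'.injective h2
      simp only [fibP_inl, Pi.single_eq_same, Sum.inl.injEq, Prod.mk.injEq, true_and] at h3
      exact h10 (by simpa using h3.symm)
  -- the affine structure on each fibre
  have hstr : ∀ i : I, ∃ (k : I) (y c : ZMod p), c ≠ 0 ∧
      ∀ x : ZMod p, g (Sum.inl (i, x)) = Sum.inl (k, y + x * c) := by
    intro i
    have h1 := (Subgroup.mem_normalizer_iff.mp hg (fibP E (Pi.single i 1))).mp
      (fibP_mem_baseB E _)
    obtain ⟨h, hh⟩ := h1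
    have hstep : ∀ z, g (fibP E (Pi.single i 1) z) = fibP E h (g z) := by
      intro z
      rw [hh]; simp
    obtain ⟨k, y, hky⟩ := hinl g hg i 0
    have hn : ∀ n : ℕ, g (Sum.inl (i, (n : ZMod p))) = Sum.inl (k, y + n * h k) := by
      intro n
      induction n with
      | zero => simpa using hky
      | succ n ih =>
        have e1 : (Sum.inl (i, ((n + 1 : ℕ) : ZMod p)) : Pt I E p) =
            fibP E (Pi.single i 1) (Sum.inl (i, (n : ZMod p))) := by
          simp
        rw [e1, hstep, ih, fibP_inl]
        congr 2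
        push_cast
        ring
    have hx : ∀ x : ZMod p, g (Sum.inl (i, x)) = Sum.inl (k, y + x * h k) := by
      intro x
      have := hn x.val
      rwa [ZMod.natCast_zmod_val] at this
    refine ⟨k, y, h k, ?_, hx⟩
    intro hc
    have e0 : g (Sum.inl (i, 0)) = Sum.inl (k, y) := by simpa [hc] using hx 0
    have e1 : g (Sum.inl (i, 1)) = Sum.inl (k, y) := by simpa [hc] using hx 1
    have := g.injective (e1.trans e0.symm)
    simp only [Sum.inl.injEq, Prod.mk.injEq, true_and] at this
    exact h10 this
  choose σ y c hc hgx using hstr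
  have hσinj : Function.Injective σ := by
    intro i i' hii
    have e0 := hgx i 0
    have e1 := hgx i' ((y i - y i') / c i')
    have e2 : y i' + (y i - y i') / c i' * c i' = y i + 0 * c i := by
      field_simp [hc i']
      ring
    rw [e2, ← hii, ← e0] at e1
    have := g.injective e1
    simp only [Sum.inl.injEq, Prod.mk.injEq] at this
    exact this.1.symm
  let τ : Equiv.Perm I := Equiv.ofBijective σ (Finite.injective_iff_bijective.mp hσinj)
  have hτ : ∀ i, τ i = σ i := fun i => rfl
  refine ⟨fun k => y (τ.symm k), fun k => Units.mk0 (c (τ.symm k)) (hc _), τ, ?_⟩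
  refine Equiv.ext (fun z => ?_)
  rcases z with ⟨i, x⟩ | e
  · rw [hgx, Equiv.Perm.mul_apply, Equiv.Perm.mul_apply, baseP_inl, diagP_inl, fibP_inl]
    have hsymm : τ.symm (σ i) = i := by rw [← hτ i, Equiv.symm_apply_apply]
    simp only [Units.val_mk0, hτ, hsymm]
    congr 2
    ring
  · rw [Equiv.Perm.mul_apply, Equiv.Perm.mul_apply, baseP_inr, diagP_inr, fibP_inr]
    rcases hge : g (Sum.inr e) with ⟨k, y'⟩ | e'
    · exfalso
      obtain ⟨k', y'', h4⟩ := hinl g⁻¹ (inv_mem hg) k y'
      rw [← hge] at h4
      simp at h4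
    · rw [Subsingleton.elim e' e]

example : StmtNormB := normB

end Cfsg.Agent.H72.AltF
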