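import Mathlib
import Cfsg.Agent.H47.BG139Defs

/-!
# BG139 (S1378) piece PRIMPOW (helper72): an element of prime power order not centralizing `Z`
-/

set_option autoImplicit false

namespace Cfsg.Agent.H72.BG139

open Cfsg Subgroup Cfsg.Agent.H47.BG139

universe u

variable {G : Type u} [Group G] [Finite G]

/-- If `w` does not commute with `z`, some power of `w` of prime power order does not either. -/
theorem exists_primePow_not_comm (z : G) : ∀ (n : ℕ) (w : G), orderOf w = n → w * z ≠ z * w →
    ∃ (u : ℕ) (v : G), u.Prime ∧ v ∈ zpowers w ∧ (∃ k : ℕ, orderOf v = u ^ k) ∧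
      v * z ≠ z * v := by
  intro n
  induction n using Nat.strong_induction_on with
  | _ n ih =>
    intro w hw hwz
    have hn0 : n ≠ 0 := by
      rw [← hw]
      exact (orderOf_pos w).ne'
    have hn1 : n ≠ 1 := by
      intro h
      rw [h, orderOf_eq_one_iff] at hw
      apply hwz
      rw [hw, one_mul, mul_one]
    have hp : (n.minFac).Prime := Nat.minFac_prime hn1
    have hpn : n.minFac ∣ n := Nat.minFac_dvd n
    obtain ⟨a, ha⟩ : ∃ a, a = n.minFac ^ n.factorization n.minFac := ⟨_, rfl⟩
    obtain ⟨b, hb⟩ : ∃ b, b = n / n.minFac ^ n.factorization n.minFac := ⟨_, rfl⟩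
    have hab : a * b = n := by
      rw [ha, hb]
      exact Nat.ordProj_mul_ordCompl_eq_self n n.minFac
    have hcop : Nat.Coprime a b := by
      rw [ha, hb]
      exact Nat.Coprime.pow_left _ (Nat.coprime_ordCompl hp hn0)
    have ha1 : 1 < a := by
      have h1 : 0 < n.factorization n.minFac := hp.factorization_pos_of_dvd hn0 hpn
      rw [ha]
      exact Nat.one_lt_pow h1.ne' hp.one_lt
    have hb0 : b ≠ 0 := by
      intro h
      rw [h, mul_zero] at hab
      exact hn0 hab.symm
    have ha0 : a ≠ 0 := by omega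
    have hordb : orderOf (w ^ b) = a := by
      rw [orderOf_pow' w hb0, hw, Nat.gcd_eq_right ⟨a, by rw [← hab, mul_comm]⟩]
      exact Nat.div_eq_of_eq_mul_left (Nat.pos_of_ne_zero hb0) hab.symm
    have horda : orderOf (w ^ a) = b := by
      rw [orderOf_pow' w ha0, hw, Nat.gcd_eq_right ⟨b, hab.symm⟩]
      exact Nat.div_eq_of_eq_mul_left (Nat.pos_of_ne_zero ha0) (by rw [← hab, mul_comm])
    by_cases hcb : w ^ b * z = z * w ^ b
    · have hca : w ^ a * z ≠ z * w ^ a := by
        intro hca
        apply hwz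
        have hgcd := Nat.gcd_eq_gcd_ab a b
        rw [hcop.gcd_eq_one] at hgcd
        have hw1 : w = (w ^ a) ^ (Nat.gcdA a b) * (w ^ b) ^ (Nat.gcdB a b) := by
          rw [← zpow_natCast w a, ← zpow_natCast w b, ← zpow_mul, ← zpow_mul, ← zpow_add, ← hgcd]
          simp
        have c1 : Commute ((w ^ a) ^ (Nat.gcdA a b)) z :=
          (show Commute (w ^ a) z from hca).zpow_left _
        have c2 : Commute ((w ^ b) ^ (Nat.gcdB a b)) z :=
          (show Commute (w ^ b) z from hcb).zpow_left _
        have c3 := (c1.mul_left c2).eq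
        rw [← hw1] at c3
        exact c3
      have hlt : b < n := by
        have hb1 : 1 ≤ b := Nat.pos_of_ne_zero hb0
        calc b < 2 * b := by omega
          _ ≤ a * b := Nat.mul_le_mul_right b ha1
          _ = n := hab
      obtain ⟨u, v, hu, hv, hk, hvz⟩ := ih b hlt (w ^ a) horda hca
      exact ⟨u, v, hu, (zpowers_le.mpr (npow_mem_zpowers w a)) hv, hk, hvz⟩
    · exact ⟨n.minFac, w ^ b, hp, npow_mem_zpowers w b, ⟨n.factorization n.minFac, by
        rw [hordb, ha]⟩, hcb⟩

theorem primPow : StPrimPow G := by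
  intro Z V hZ hZV
  obtain ⟨⟨z, hzZ⟩, hz1⟩ := (Subgroup.ne_bot_iff_exists_ne_one).mp hZ
  have hz1' : z ≠ 1 := fun h => hz1 (Subtype.ext h)
  have hzV : z ∉ centralizer (V : Set G) := by
    intro h
    have h1 : z ∈ Z ⊓ centralizer (V : Set G) := ⟨hzZ, h⟩
    rw [hZV] at h1
    exact hz1' (mem_bot.mp h1)
  rw [mem_centralizer_iff] at hzV
  push Not at hzV
  obtain ⟨w, hwV, hw⟩ := hzV
  obtain ⟨u, v, hu, hv, hk, hvz⟩ := exists_primePow_not_comm z _ w rfl hw
  exact ⟨u, v, hu, (zpowers_le.mpr hwV) hv, hk, z, hzZ, hvz⟩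

example : StPrimPow G := primPow

end Cfsg.Agent.H72.BG139
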