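import Mathlib
import Cfsg.Agent.H47.BG139Defs
import Cfsg.Agent.H1.Hall
import Cfsg.Agent.H12.ESSyl5

/-!
# BG139 (S1378) piece ZH (helper72): two elements of distinct prime orders with cyclic Sylow
subgroups in a solvable group: one of them normalizes (a conjugate of) the other
-/

set_option autoImplicit false
set_option linter.style.haveILetI false

namespace Cfsg.Agent.H72.BG139

open Cfsg Subgroup Cfsg.Agent.H47.BG139

universe u

section general

variable {J : Type*} [Group J]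

theorem conj_zpow_mem_zpowers (a x : J) (h : a * x * a⁻¹ ∈ zpowers x) (k : ℤ) :
    a * x ^ k * a⁻¹ ∈ zpowers x := by
  rw [← conj_zpow]
  exact zpow_mem h k

theorem mem_normalizer_zpowers (g x : J) (h1 : g * x * g⁻¹ ∈ zpowers x)
    (h2 : g⁻¹ * x * g ∈ zpowers x) : g ∈ normalizer ((zpowers x : Subgroup J) : Set J) := by
  rw [mem_normalizer_iff]
  intro h
  constructor
  · rintro ⟨k, rfl⟩
    exact conj_zpow_mem_zpowers g x h1 k
  · intro hh
    obtain ⟨k, hk⟩ := hh
    have h2' : g⁻¹ * x * g⁻¹⁻¹ ∈ zpowers x := by rwa [inv_inv]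
    have h3 := conj_zpow_mem_zpowers g⁻¹ x h2' k
    have e : h = g⁻¹ * (g * h * g⁻¹) * g⁻¹⁻¹ := by group
    rw [e, ← hk]
    exact h3

/-- In a finite group, conjugates of an element of a cyclic normal subgroup are its powers. -/
theorem conj_mem_zpowers_of_cyclic_normal [Finite J] (N : Subgroup J) [N.Normal] [IsCyclic N]
    (x : J) (hx : x ∈ N) (j : J) : j * x * j⁻¹ ∈ zpowers x := by
  have hpos : 0 < orderOf x := orderOf_pos x
  have hw : j * x * j⁻¹ ∈ N := ‹N.Normal›.conj_mem x hx j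
  have hws : (⟨j * x * j⁻¹, hw⟩ : N) ^ orderOf x = 1 := by
    apply Subtype.ext
    rw [Subgroup.coe_pow, Subgroup.coe_one]
    show (j * x * j⁻¹) ^ orderOf x = 1
    rw [conj_pow, pow_orderOf_eq_one, mul_one, mul_inv_cancel]
  obtain ⟨k, hk⟩ := Cfsg.Agent.H12.ES.mem_powers_of_cyclic (C := N) (orderOf x) hpos
    ⟨j * x * j⁻¹, hw⟩ ⟨x, hx⟩ (Subgroup.orderOf_mk x hx) hws
  have hk' := congrArg Subtype.val hk
  rw [Subgroup.coe_pow] at hk'
  show j * x * j⁻¹ ∈ zpowers x
  have hk'' : j * x * j⁻¹ = x ^ k := hk'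
  rw [hk'']
  exact npow_mem_zpowers x k

/-- The Z-group lemma. -/
theorem zgroup_pair [Finite J] [IsZGroup J] (x y : J) (s t a b : ℕ)
    (hs : s.Prime) (ht : t.Prime) (hx : orderOf x = s) (hy : orderOf y = t)
    (hcard : Nat.card J = s ^ a * t ^ b) :
    (∀ j : J, j * x * j⁻¹ ∈ zpowers x) ∨ (∀ j : J, j * y * j⁻¹ ∈ zpowers y) := by
  haveI hcyc : IsCyclic (commutator J) := IsZGroup.isCyclic_commutator J
  have hcop : (Nat.card (commutator J)).Coprime (commutator J).index :=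
    IsZGroup.coprime_commutator_index J
  have key : ∀ (z : J) (r : ℕ), r.Prime → orderOf z = r → r ∣ Nat.card (commutator J) →
      z ∈ commutator J := by
    intro z r hr hz hrd
    have h1 : orderOf (QuotientGroup.mk' (commutator J) z) ∣ r := by
      rw [← hz]
      exact orderOf_map_dvd _ z
    have h2 : orderOf (QuotientGroup.mk' (commutator J) z) ∣ (commutator J).index := by
      rw [Subgroup.index_eq_card]
      exact orderOf_dvd_natCard _
    have h3 : Nat.Coprime r (commutator J).index := Nat.Coprime.coprime_dvd_left hrd hcop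
    have h4 : orderOf (QuotientGroup.mk' (commutator J) z) ∣ Nat.gcd r (commutator J).index :=
      Nat.dvd_gcd h1 h2
    rw [h3.gcd_eq_one, Nat.dvd_one, orderOf_eq_one_iff] at h4
    exact (QuotientGroup.eq_one_iff z).mp h4
  by_cases h1 : s ∣ Nat.card (commutator J)
  · left
    intro j
    exact conj_mem_zpowers_of_cyclic_normal (commutator J) x (key x s hs hx h1) j
  · by_cases h2 : t ∣ Nat.card (commutator J)
    · right
      intro j
      exact conj_mem_zpowers_of_cyclic_normal (commutator J) y (key y t ht hy h2) j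
    · left
      have hdvd : Nat.card (commutator J) ∣ s ^ a * t ^ b := by
        rw [← hcard]
        exact Subgroup.card_subgroup_dvd_card _
      have h1' : Nat.card (commutator J) = 1 := by
        by_contra hne
        obtain ⟨r, hr, hrd⟩ := Nat.exists_prime_and_dvd hne
        rcases (Nat.Prime.dvd_mul hr).mp (hrd.trans hdvd) with h | h
        · have h3 : r = s := (Nat.prime_dvd_prime_iff_eq hr hs).mp (hr.dvd_of_dvd_pow h)
          rw [h3] at hrd
          exact h1 hrd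
        · have h3 : r = t := (Nat.prime_dvd_prime_iff_eq hr ht).mp (hr.dvd_of_dvd_pow h)
          rw [h3] at hrd
          exact h2 hrd
      have hbot : commutator J = ⊥ := Subgroup.card_eq_one.mp h1'
      intro j
      have hcomm : j * x * j⁻¹ * x⁻¹ ∈ commutator J :=
        Subgroup.commutator_mem_commutator (g₁ := j) (g₂ := x) (Subgroup.mem_top _)
          (Subgroup.mem_top _)
      rw [hbot, Subgroup.mem_bot] at hcomm
      have h3 : j * x * j⁻¹ = x := mul_inv_eq_one.mp hcomm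
      rw [h3]
      exact mem_zpowers x

/-- If the `p`-subgroups through an element `z` of order `p` are cyclic, so are all Sylow
`p`-subgroups. -/
theorem sylow_cyclic_of_through [Finite J] (p : ℕ) [Fact p.Prime] (z : J) (hz : orderOf z = p)
    (h : ∀ S : Subgroup J, IsPGroup p S → z ∈ S → IsCyclic S) (P : Sylow p J) : IsCyclic P := by
  have hzp : IsPGroup p (zpowers z) := by
    refine IsPGroup.of_card (n := 1) ?_
    rw [Nat.card_zpowers, hz, pow_one]
  obtain ⟨Q, hQ⟩ := hzp.exists_le_sylow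
  haveI : IsCyclic Q := h Q Q.isPGroup' (hQ (mem_zpowers z))
  exact isCyclic_of_surjective (Sylow.equiv Q P) (Sylow.equiv Q P).surjective

end general

variable {G : Type u} [Group G] [Finite G]

theorem zh : StZH G := by
  intro C x y hCsol hxC hyC hsP htP hst hxcyc hycyc
  classical
  haveI := hCsol
  generalize hs_def : orderOf x = s at *
  generalize ht_def : orderOf y = t at *
  haveI hsF : Fact s.Prime := ⟨hsP⟩
  haveI htF : Fact t.Prime := ⟨htP⟩
  have hxCo : orderOf (⟨x, hxC⟩ : C) = s := by rw [Subgroup.orderOf_mk, hs_def]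
  have hyCo : orderOf (⟨y, hyC⟩ : C) = t := by rw [Subgroup.orderOf_mk, ht_def]
  -- the numbers
  obtain ⟨N, hN⟩ : ∃ N, N = Nat.card C := ⟨_, rfl⟩
  have hN0 : N ≠ 0 := by
    rw [hN]
    exact Nat.card_pos.ne'
  obtain ⟨a, ha⟩ : ∃ a, a = N.factorization s := ⟨_, rfl⟩
  obtain ⟨N₁, hN₁⟩ : ∃ N₁, N₁ = N / s ^ a := ⟨_, rfl⟩
  obtain ⟨b, hb⟩ : ∃ b, b = N₁.factorization t := ⟨_, rfl⟩
  obtain ⟨n, hn⟩ : ∃ n, n = N₁ / t ^ b := ⟨_, rfl⟩
  have e1 : s ^ a * N₁ = N := by
    rw [hN₁, ha]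
    exact Nat.ordProj_mul_ordCompl_eq_self N s
  have e2 : t ^ b * n = N₁ := by
    rw [hn, hb]
    exact Nat.ordProj_mul_ordCompl_eq_self N₁ t
  have hN₁0 : N₁ ≠ 0 := by
    intro h
    rw [h, mul_zero] at e1
    exact hN0 e1.symm
  have hc1 : Nat.Coprime s N₁ := by
    rw [hN₁, ha]
    exact Nat.coprime_ordCompl hsP hN0
  have hc2 : Nat.Coprime t n := by
    rw [hn, hb]
    exact Nat.coprime_ordCompl htP hN₁0
  have hc3 : Nat.Coprime s n := Nat.Coprime.coprime_dvd_right ⟨t ^ b, by rw [← e2, mul_comm]⟩ hc1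
  have hNmn : Nat.card C = (s ^ a * t ^ b) * n := by
    rw [← hN, mul_assoc, e2, e1]
  have hmn : Nat.Coprime (s ^ a * t ^ b) n :=
    Nat.Coprime.mul_left (Nat.Coprime.pow_left _ hc3) (Nat.Coprime.pow_left _ hc2)
  -- Hall subgroups
  have hKx : (Nat.card (zpowers (⟨x, hxC⟩ : C))).Coprime n := by
    rw [Nat.card_zpowers, hxCo]
    exact hc3
  have hKy : (Nat.card (zpowers (⟨y, hyC⟩ : C))).Coprime n := by
    rw [Nat.card_zpowers, hyCo]
    exact hc2
  obtain ⟨J₁, hJ₁, hxJ⟩ := Cfsg.Agent.H1.hall_le _ n hNmn hmn (zpowers (⟨x, hxC⟩ : C)) hKx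
  obtain ⟨J₂, hJ₂, hyJ⟩ := Cfsg.Agent.H1.hall_le _ n hNmn hmn (zpowers (⟨y, hyC⟩ : C)) hKy
  obtain ⟨g, hg⟩ := Cfsg.Agent.H1.hall_conj _ n hNmn hmn J₂ J₁ hJ₂ hJ₁
  have hxJ₁ : (⟨x, hxC⟩ : C) ∈ J₁ := hxJ (mem_zpowers _)
  have hyJ₁ : g * (⟨y, hyC⟩ : C) * g⁻¹ ∈ J₁ := by
    rw [← hg]
    have h1 := Subgroup.smul_mem_pointwise_smul (⟨y, hyC⟩ : C) (MulAut.conj g) J₂
      (hyJ (mem_zpowers _))
    rwa [MulAut.smul_def, MulAut.conj_apply] at h1
  have hyord : orderOf (g * (⟨y, hyC⟩ : C) * g⁻¹) = t := by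
    have h1 := MulEquiv.orderOf_eq (MulAut.conj g) (⟨y, hyC⟩ : C)
    rw [MulAut.conj_apply] at h1
    rw [h1, hyCo]
  -- the embedding of `J₁` into `G`
  let φ : J₁ →* G := C.subtype.comp J₁.subtype
  have hφinj : Function.Injective φ := fun u v huv => Subtype.ext (Subtype.ext huv)
  have hφC : ∀ w : J₁, φ w ∈ C := fun w => (w : C).2
  -- cyclic Sylow subgroups
  have hcycX : ∀ S : Subgroup J₁, IsPGroup s S → (⟨⟨x, hxC⟩, hxJ₁⟩ : J₁) ∈ S → IsCyclic S := by
    intro S hS hxS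
    haveI : IsCyclic (S.map φ) := hxcyc (S.map φ) (hS.map φ)
      (by rintro _ ⟨w, -, rfl⟩; exact hφC w) ⟨_, hxS, rfl⟩
    exact isCyclic_of_surjective (S.equivMapOfInjective φ hφinj).symm
      (S.equivMapOfInjective φ hφinj).symm.surjective
  have hcycY : ∀ S : Subgroup J₁, IsPGroup t S →
      (⟨g * (⟨y, hyC⟩ : C) * g⁻¹, hyJ₁⟩ : J₁) ∈ S → IsCyclic S := by
    intro S hS hyS
    let ψ : J₁ →* G := (MulAut.conj (g : G)⁻¹).toMonoidHom.comp φ
    have hψinj : Function.Injective ψ := (MulAut.conj (g : G)⁻¹).injective.comp hφinj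
    haveI : IsCyclic (S.map ψ) := hycyc (S.map ψ) (hS.map ψ)
      (by
        rintro _ ⟨w, -, rfl⟩
        show (g : G)⁻¹ * φ w * (g : G)⁻¹⁻¹ ∈ C
        exact C.mul_mem (C.mul_mem (C.inv_mem g.2) (hφC w)) (C.inv_mem (C.inv_mem g.2)))
      ⟨_, hyS, by
        show (g : G)⁻¹ * ((g : G) * y * (g : G)⁻¹) * (g : G)⁻¹⁻¹ = y
        group⟩
    exact isCyclic_of_surjective (S.equivMapOfInjective ψ hψinj).symm
      (S.equivMapOfInjective ψ hψinj).symm.surjective
  haveI hZ : IsZGroup J₁ := by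
    refine ⟨fun p hp P => ?_⟩
    haveI : Fact p.Prime := ⟨hp⟩
    by_cases hps : p = s
    · subst hps
      exact sylow_cyclic_of_through p (⟨⟨x, hxC⟩, hxJ₁⟩ : J₁)
        (by rw [Subgroup.orderOf_mk, hxCo]) hcycX P
    · by_cases hpt : p = t
      · subst hpt
        exact sylow_cyclic_of_through p (⟨g * (⟨y, hyC⟩ : C) * g⁻¹, hyJ₁⟩ : J₁)
          (by rw [Subgroup.orderOf_mk, hyord]) hcycY P
      · obtain ⟨k, hk⟩ := IsPGroup.iff_card.mp P.isPGroup'
        have hdvd : p ^ k ∣ s ^ a * t ^ b := by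
          rw [← hk, ← hJ₁]
          exact Subgroup.card_subgroup_dvd_card _
        have hk0 : k = 0 := by
          by_contra hk0
          have h1 : p ∣ s ^ a * t ^ b := (dvd_pow_self p hk0).trans hdvd
          rcases (Nat.Prime.dvd_mul hp).mp h1 with h | h
          · exact hps ((Nat.prime_dvd_prime_iff_eq hp hsP).mp (hp.dvd_of_dvd_pow h))
          · exact hpt ((Nat.prime_dvd_prime_iff_eq hp htP).mp (hp.dvd_of_dvd_pow h))
        rw [hk0, pow_zero] at hk
        haveI : Subsingleton (P : Subgroup J₁) := (Nat.card_eq_one_iff_unique.mp hk).1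
        exact isCyclic_of_subsingleton
  -- apply the Z-group lemma
  have hres := zgroup_pair (⟨⟨x, hxC⟩, hxJ₁⟩ : J₁) (⟨g * (⟨y, hyC⟩ : C) * g⁻¹, hyJ₁⟩ : J₁)
    s t a b hsP htP (by rw [Subgroup.orderOf_mk, hxCo]) (by rw [Subgroup.orderOf_mk, hyord]) hJ₁
  -- transport of membership in `zpowers`
  have htrans : ∀ u v : J₁, u ∈ zpowers v → φ u ∈ zpowers (φ v) := by
    rintro u v ⟨k, rfl⟩
    rw [map_zpow]
    exact zpow_mem (mem_zpowers _) k
  refine ⟨(g : G), g.2, ?_⟩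
  rcases hres with h | h
  · left
    refine mem_normalizer_zpowers _ _ ?_ ?_
    · have h1 := htrans _ _ (h (⟨g * (⟨y, hyC⟩ : C) * g⁻¹, hyJ₁⟩ : J₁))
      simpa [φ] using h1
    · have h1 := htrans _ _ (h (⟨g * (⟨y, hyC⟩ : C) * g⁻¹, hyJ₁⟩ : J₁)⁻¹)
      simpa [φ] using h1
  · right
    have e : φ (⟨g * (⟨y, hyC⟩ : C) * g⁻¹, hyJ₁⟩ : J₁) = (g : G) * y * (g : G)⁻¹ := rfl
    refine mem_normalizer_zpowers _ _ ?_ ?_
    · have h1 := htrans _ _ (h (⟨⟨x, hxC⟩, hxJ₁⟩ : J₁))
      rw [map_mul, map_mul, map_inv, e] at h1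
      exact h1
    · have h1 := htrans _ _ (h (⟨⟨x, hxC⟩, hxJ₁⟩ : J₁)⁻¹)
      rw [map_mul, map_mul, map_inv, inv_inv, e] at h1
      exact h1

example : StZH G := zh

end Cfsg.Agent.H72.BG139
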