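import Mathlib
import Cfsg.Agent.H75.ESDefs
import Cfsg.Agent.H17.Symp

/-!
# S6002, piece CNT (helper72): inside `Sp_4`, exactly twelve elements of `R` have square one
-/

set_option autoImplicit false

namespace Cfsg.Agent.H72.ES

open Cfsg.Agent.H75.ES Matrix

universe u

section dims

variable {F : Type u} [Field F]

/-- A linearly independent family inside a subspace `W` of `4 × 4` matrices whose elements are
determined by the entries at the positions `P` has at most `#P` members. -/
theorem li_card_le {n : ℕ} (v : Fin n → M4 F) (hv : LinearIndependent F v)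
    (P : I4 × I4 → Prop) [DecidablePred P] (W : Submodule F (M4 F)) (hW : ∀ i, v i ∈ W)
    (hinj : ∀ M ∈ W, (∀ q, P q → M q.1 q.2 = 0) → M = 0) :
    n ≤ Fintype.card {q : I4 × I4 // P q} := by
  let φ : M4 F →ₗ[F] ({q : I4 × I4 // P q} → F) :=
    { toFun := fun M q => M q.1.1 q.1.2
      map_add' := fun _ _ => rfl
      map_smul' := fun _ _ => rfl }
  have hli2 : LinearIndependent F (φ ∘ v) := by
    refine hv.map ?_
    rw [Submodule.disjoint_def]
    intro M hM hker
    have hMW : M ∈ W := (Submodule.span_le.mpr (by rintro _ ⟨i, rfl⟩; exact hW i)) hM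
    apply hinj M hMW
    intro q hq
    exact congrFun (LinearMap.mem_ker.mp hker) ⟨q, hq⟩
  have h1 := hli2.fintype_card_le_finrank
  rw [Fintype.card_fin, Module.finrank_fintype_fun_eq_card] at h1
  exact h1

/-- antisymmetric matrices -/
def Wa (F : Type u) [Field F] : Submodule F (M4 F) where
  carrier := {M | Mᵀ = -M}
  add_mem' := by
    intro a b ha hb
    show (a + b)ᵀ = -(a + b)
    rw [Matrix.transpose_add, ha, hb, neg_add]
  zero_mem' := by
    show (0 : M4 F)ᵀ = -0
    simp
  smul_mem' := by
    intro c a ha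
    show (c • a)ᵀ = -(c • a)
    rw [Matrix.transpose_smul, ha, smul_neg]

/-- symmetric matrices -/
def Ws (F : Type u) [Field F] : Submodule F (M4 F) where
  carrier := {M | Mᵀ = M}
  add_mem' := by
    intro a b ha hb
    show (a + b)ᵀ = a + b
    rw [Matrix.transpose_add, ha, hb]
  zero_mem' := by
    show (0 : M4 F)ᵀ = 0
    simp
  smul_mem' := by
    intro c a ha
    show (c • a)ᵀ = c • a
    rw [Matrix.transpose_smul, ha]

theorem Wa_inj (h2 : (2 : F) ≠ 0) (M : M4 F) (hM : M ∈ Wa F)
    (h0 : ∀ q : I4 × I4, finSumFinEquiv q.1 < finSumFinEquiv q.2 → M q.1 q.2 = 0) : M = 0 := by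
  have hM' : ∀ i j, M j i = -M i j := by
    intro i j
    have h1 : Mᵀ = -M := hM
    have := congrFun (congrFun h1 i) j
    simpa using this
  ext i j
  rcases lt_trichotomy (finSumFinEquiv i) (finSumFinEquiv j) with h | h | h
  · exact h0 (i, j) h
  · have hij : i = j := finSumFinEquiv.injective h
    subst hij
    have h1 := hM' i i
    have h3 : (2 : F) * M i i = 0 := by
      rw [two_mul]
      nth_rewrite 1 [h1]
      exact neg_add_cancel _
    rcases mul_eq_zero.mp h3 with h4 | h4
    · exact absurd h4 h2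
    · exact h4
  · have h1 := h0 (j, i) h
    have h3 := hM' j i
    show M i j = 0
    rw [h3, h1, neg_zero]

theorem Ws_inj (M : M4 F) (hM : M ∈ Ws F)
    (h0 : ∀ q : I4 × I4, finSumFinEquiv q.1 ≤ finSumFinEquiv q.2 → M q.1 q.2 = 0) : M = 0 := by
  have hM' : ∀ i j, M j i = M i j := by
    intro i j
    have h1 : Mᵀ = M := hM
    have := congrFun (congrFun h1 i) j
    simpa using this
  ext i j
  rcases le_total (finSumFinEquiv i) (finSumFinEquiv j) with h | h
  · exact h0 (i, j) h
  · have h1 := h0 (j, i) h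
    show M i j = 0
    rw [hM' j i, h1]

theorem card_Pa :
    Fintype.card {q : I4 × I4 // finSumFinEquiv q.1 < finSumFinEquiv q.2} = 6 := by
  decide

theorem card_Ps :
    Fintype.card {q : I4 × I4 // finSumFinEquiv q.1 ≤ finSumFinEquiv q.2} = 10 := by
  decide

end dims

/-- The key bound: a finite subset `S` of `R` all of whose `J x` lie in a subspace `W` determined
by the entries at `P` has at most `2 * #P` elements. -/
theorem key_bound (hli : StLI.{u}) {F : Type u} [Field F] (R : Subgroup (G4 F))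
    (h2 : (2 : F) ≠ 0) (hES : IsES R) (S : Finset (G4 F)) (hSR : ∀ x ∈ S, x ∈ R)
    (P : I4 × I4 → Prop) [DecidablePred P] (W : Submodule F (M4 F))
    (hW : ∀ x ∈ S, Matrix.J (Fin 2) F * (x : M4 F) ∈ W)
    (hinj : ∀ M ∈ W, (∀ q, P q → M q.1 q.2 = 0) → M = 0) :
    S.card ≤ 2 * Fintype.card {q : I4 × I4 // P q} := by
  classical
  let 𝒯 : Finset (Finset (G4 F)) :=
    S.powerset.filter (fun T => ∀ x ∈ T, ∀ y ∈ T, x ≠ y → x ≠ -y)
  have h𝒯 : 𝒯.Nonempty := ⟨∅, by simp [𝒯]⟩
  obtain ⟨T, hT, hmax⟩ := Finset.exists_max_image 𝒯 Finset.card h𝒯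
  rw [Finset.mem_filter, Finset.mem_powerset] at hT
  obtain ⟨hTS, hTP⟩ := hT
  have hcov : S ⊆ T ∪ T.image (fun x => -x) := by
    intro x hx
    by_contra hcon
    rw [Finset.mem_union, not_or] at hcon
    obtain ⟨hx1, hx2⟩ := hcon
    have hx3 : -x ∉ T := fun h => hx2 (Finset.mem_image.mpr ⟨-x, h, neg_neg x⟩)
    have hins : insert x T ∈ 𝒯 := by
      rw [Finset.mem_filter, Finset.mem_powerset]
      refine ⟨Finset.insert_subset hx hTS, ?_⟩
      intro u hu v hv huv
      rw [Finset.mem_insert] at hu hv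
      rcases hu with hu | hu <;> rcases hv with hv | hv
      · exact absurd (hu.trans hv.symm) huv
      · intro h
        apply hx3
        rw [← hu, h, neg_neg]
        exact hv
      · intro h
        apply hx3
        rw [← hv, ← h]
        exact hu
      · exact hTP u hu v hv huv
    have h1 := hmax _ hins
    rw [Finset.card_insert_of_notMem hx1] at h1
    omega
  have hcard1 : S.card ≤ 2 * T.card := by
    calc S.card ≤ (T ∪ T.image (fun x => -x)).card := Finset.card_le_card hcov
      _ ≤ T.card + (T.image (fun x => -x)).card := Finset.card_union_le _ _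
      _ ≤ T.card + T.card := Nat.add_le_add_left Finset.card_image_le _
      _ = 2 * T.card := by ring
  -- enumerate `T`
  let h : Fin T.card → G4 F := fun i => ((T.equivFin.symm i : T) : G4 F)
  have hh_mem : ∀ i, h i ∈ T := fun i => (T.equivFin.symm i).2
  have hh_inj : Function.Injective h := fun i j hij =>
    T.equivFin.symm.injective (Subtype.ext hij)
  have hind := hli F R h2 hES T.card h (fun i => hSR _ (hTS (hh_mem i)))
    (fun i j hij => ⟨fun e => hij (hh_inj e),
      hTP _ (hh_mem i) _ (hh_mem j) (fun e => hij (hh_inj e))⟩)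
  have hJ := hind.map' (LinearMap.mulLeft F (Matrix.J (Fin 2) F)) (by
    rw [LinearMap.ker_eq_bot]
    intro M N hMN
    have h1 := congrArg (fun X => Matrix.J (Fin 2) F * X) hMN
    simp only [LinearMap.mulLeft_apply, ← Matrix.mul_assoc, Matrix.J_squared] at h1
    simpa using h1)
  have h3 := li_card_le _ hJ P W (fun i => hW _ (hTS (hh_mem i))) hinj
  omega

theorem cnt (hli : StLI.{u}) : StCnt.{u} := by
  intro F _ R h2 hES hsp
  classical
  have hfin : Finite R := Nat.finite_of_card_ne_zero (by rw [hES.card]; norm_num)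
  have hRfin : (R : Set (G4 F)).Finite := Set.toFinite _
  have hmem : ∀ x, x ∈ hRfin.toFinset ↔ x ∈ R := by
    intro x
    rw [Set.Finite.mem_toFinset]
    rfl
  have hcard : hRfin.toFinset.card = 32 := by
    rw [← hES.card]
    exact (Nat.subtype_card _ hmem).symm
  have hneg1 : (1 : G4 F) ≠ -1 := by
    intro h
    have h1 := congrArg (fun x : G4 F => (x : M4 F) (Sum.inl 0) (Sum.inl 0)) h
    simp only [Units.val_one, Units.val_neg, Matrix.one_apply_eq, Matrix.neg_apply] at h1
    apply h2
    have h3 : (2 : F) = 1 + 1 := by norm_num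
    rw [h3]
    nth_rewrite 1 [h1]
    exact neg_add_cancel _
  -- the form identity for the elements of `R`
  have hJ : ∀ x ∈ R, (x : M4 F)ᵀ * Matrix.J (Fin 2) F * (x : M4 F) = Matrix.J (Fin 2) F := by
    intro x hx
    have hasp : ∀ u v : I4 → F, Cfsg.sympForm 2 F ((x : M4 F) *ᵥ u) ((x : M4 F) *ᵥ v) =
        Cfsg.sympForm 2 F u v := hsp hx
    apply Cfsg.Agent.H17.matrix_ext_form
    intro u v
    have := hasp u v
    rw [Cfsg.Agent.H17.sympForm_mulVec] at this
    exact this
  have hA : (hRfin.toFinset.filter (fun x => x * x = 1)).card ≤ 2 * 6 := by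
    rw [← card_Pa]
    refine key_bound hli R h2 hES _ (fun x hx => (hmem x).mp (Finset.mem_filter.mp hx).1) _
      (Wa F) ?_ (Wa_inj h2)
    intro x hx
    rw [Finset.mem_filter, hmem] at hx
    obtain ⟨hxR, hxx⟩ := hx
    have hxx' : (x : M4 F) * (x : M4 F) = 1 := by
      have h1 := congrArg (fun y : G4 F => (y : M4 F)) hxx
      simpa using h1
    show (Matrix.J (Fin 2) F * (x : M4 F))ᵀ = -(Matrix.J (Fin 2) F * (x : M4 F))
    have h1 : (x : M4 F)ᵀ * Matrix.J (Fin 2) F = Matrix.J (Fin 2) F * (x : M4 F) := by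
      have h3 : (x : M4 F)ᵀ * Matrix.J (Fin 2) F * ((x : M4 F) * (x : M4 F)) =
          Matrix.J (Fin 2) F * (x : M4 F) := by
        rw [← Matrix.mul_assoc, hJ x hxR]
      rw [hxx', Matrix.mul_one] at h3
      exact h3
    rw [Matrix.transpose_mul, Matrix.J_transpose, Matrix.mul_neg, h1]
  have hB : (hRfin.toFinset.filter (fun x => x * x = -1)).card ≤ 2 * 10 := by
    rw [← card_Ps]
    refine key_bound hli R h2 hES _ (fun x hx => (hmem x).mp (Finset.mem_filter.mp hx).1) _
      (Ws F) ?_ Ws_inj
    intro x hx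
    rw [Finset.mem_filter, hmem] at hx
    obtain ⟨hxR, hxx⟩ := hx
    have hxx' : (x : M4 F) * (x : M4 F) = -1 := by
      have h1 := congrArg (fun y : G4 F => (y : M4 F)) hxx
      simpa using h1
    show (Matrix.J (Fin 2) F * (x : M4 F))ᵀ = Matrix.J (Fin 2) F * (x : M4 F)
    have h1 : (x : M4 F)ᵀ * Matrix.J (Fin 2) F = -(Matrix.J (Fin 2) F * (x : M4 F)) := by
      have h3 : (x : M4 F)ᵀ * Matrix.J (Fin 2) F * ((x : M4 F) * (x : M4 F)) =
          Matrix.J (Fin 2) F * (x : M4 F) := by
        rw [← Matrix.mul_assoc, hJ x hxR]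
      rw [hxx', Matrix.mul_neg, Matrix.mul_one] at h3
      rw [← h3, neg_neg]
    rw [Matrix.transpose_mul, Matrix.J_transpose, Matrix.mul_neg, h1, neg_neg]
  have hAB : (hRfin.toFinset.filter (fun x => x * x = 1)).card +
      (hRfin.toFinset.filter (fun x => x * x = -1)).card = 32 := by
    rw [← hcard, ← Finset.card_filter_add_card_filter_not (s := hRfin.toFinset)
      (fun x => x * x = 1)]
    congr 1
    congr 1
    apply Finset.filter_congr
    intro x hx
    rw [hmem] at hx
    constructor
    · intro h h'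
      rw [h] at h'
      exact hneg1 h'.symm
    · intro h
      rcases hES.sq x hx with h' | h'
      · exact absurd h' h
      · exact h'
  unfold Cnt12
  rw [Nat.subtype_card (hRfin.toFinset.filter (fun x => x * x = 1))
    (by intro x; rw [Finset.mem_filter, hmem])]
  omega

example (hli : StLI.{u}) : StCnt.{u} := cnt hli

end Cfsg.Agent.H72.ES
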