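import Mathlib
import Cfsg.Agent.H75.ESDefs
import Cfsg.Agent.H17.Symp

/-!
# S6002, piece ORD5 (helper72): the normaliser of `R` in `Sp_4` has an element of order five
-/

set_option autoImplicit false

namespace Cfsg.Agent.H72.ES

open Cfsg.Agent.H75.ES Matrix

universe u

section algebra

variable {G : Type*} [Group G] [HasDistribNeg G]

theorem anti_symm' {x y : G} (hxy : x * y = -(y * x)) : y * x = -(x * y) := by
  rw [hxy, neg_neg]

theorem pair_sq {x y : G} (hx : x * x = 1) (hy : y * y = 1) (hxy : x * y = -(y * x)) :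
    (x * y) * (x * y) = -1 := by
  have hyx := anti_symm' hxy
  calc x * y * (x * y) = x * (y * x) * y := by simp only [mul_assoc]
    _ = x * (-(x * y)) * y := by rw [hyx]
    _ = -((x * x) * (y * y)) := by simp only [mul_neg, neg_mul, mul_assoc]
    _ = -1 := by rw [hx, hy, one_mul]

omit [HasDistribNeg G] in
theorem pair_left {x y : G} (hx : x * x = 1) : x * (x * y) = y := by
  rw [← mul_assoc, hx, one_mul]

theorem pair_left' {x y : G} (hxy : x * y = -(y * x)) :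
    (x * y) * x = -(x * (x * y)) := by
  have hyx := anti_symm' hxy
  calc x * y * x = x * (y * x) := by rw [mul_assoc]
    _ = x * (-(x * y)) := by rw [hyx]
    _ = -(x * (x * y)) := by rw [mul_neg]

theorem pair_right {x y : G} (hy : y * y = 1) (hxy : x * y = -(y * x)) :
    y * (x * y) = -x := by
  have hyx := anti_symm' hxy
  calc y * (x * y) = (y * x) * y := by rw [mul_assoc]
    _ = -(x * y) * y := by rw [hyx]
    _ = -(x * (y * y)) := by rw [neg_mul, mul_assoc]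
    _ = -x := by rw [hy, mul_one]

theorem pair_right' {x y : G} (hy : y * y = 1) (hxy : x * y = -(y * x)) :
    (x * y) * y = -(y * (x * y)) := by
  rw [pair_right hy hxy, neg_neg, mul_assoc, hy, mul_one]

theorem pair_other {x y z : G} (hxz : x * z = -(z * x)) (hyz : y * z = -(z * y)) :
    (x * y) * z = z * (x * y) := by
  calc x * y * z = x * (y * z) := by rw [mul_assoc]
    _ = x * (-(z * y)) := by rw [hyz]
    _ = -((x * z) * y) := by rw [mul_neg, mul_assoc]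
    _ = -(-(z * x) * y) := by rw [hxz]
    _ = z * (x * y) := by rw [neg_mul, neg_neg, mul_assoc]

theorem conj5 {G : Type*} [Group G] (s g0 g1 g2 g3 h : G) :
    (s * g0 * g1 * g2 * g3) * h * (s * g0 * g1 * g2 * g3)⁻¹ =
      s * (g0 * (g1 * (g2 * (g3 * h * g3⁻¹) * g2⁻¹) * g1⁻¹) * g0⁻¹) * s⁻¹ := by
  group

theorem conj_neg (g h : G) : g * (-h) * g⁻¹ = -(g * h * g⁻¹) := by
  rw [mul_neg, neg_mul]

end algebra

/-- The rotation attached to the pair `t i`, `t j`. -/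
theorem rot_pair (hrot : StRot.{u}) {F : Type u} [Field F] (R : Subgroup (G4 F))
    (h2 : (2 : F) ≠ 0) (hES : IsES R) (hsp : R ≤ Cfsg.spGL 2 F) (t : Fin 5 → G4 F)
    (hT : IsFive R t) (i j : Fin 5) (hij : i ≠ j) :
    ∃ g : G4 F, g ∈ Cfsg.Geo.subgroupNormalizer R ∧ g * t i * g⁻¹ = -t j ∧
      g * t j * g⁻¹ = t i ∧ (∀ k, k ≠ i → k ≠ j → g * t k * g⁻¹ = t k) ∧
      (∀ u v : I4 → F, Cfsg.sympForm 2 F ((g : M4 F) *ᵥ u) ((g : M4 F) *ᵥ v) =
        2 * Cfsg.sympForm 2 F u v) := by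
  have hxy := hT.anti i j hij
  have hx := hT.sq i
  have hy := hT.sq j
  obtain ⟨g, -, hgN, hc1, hc2, hform⟩ := hrot F R h2 hES hsp (t i * t j)
    (R.mul_mem (hT.mem i) (hT.mem j)) (pair_sq hx hy hxy)
  refine ⟨g, hgN, ?_, ?_, ?_, hform⟩
  · rw [hc2 (t i) (hT.mem i) (pair_left' hxy), pair_left hx]
  · rw [hc2 (t j) (hT.mem j) (pair_right' hy hxy), pair_right hy hxy, neg_neg]
  · intro k hki hkj
    exact hc1 (t k) (hT.mem k) (pair_other (hT.anti i k (Ne.symm hki)) (hT.anti j k (Ne.symm hkj)))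

theorem ord5 (hrot : StRot.{u}) : StOrd5.{u} := by
  intro F _ _ R h2 hES hsp t hT
  classical
  have h4 : (4 : F) ≠ 0 := by
    have h : (4 : F) = 2 * 2 := by norm_num
    rw [h]
    exact mul_ne_zero h2 h2
  have hneg1 : (1 : G4 F) ≠ -1 := by
    intro h
    have h1 := congrArg (fun x : G4 F => (x : M4 F) (Sum.inl 0) (Sum.inl 0)) h
    simp only [Units.val_one, Units.val_neg, Matrix.one_apply_eq, Matrix.neg_apply] at h1
    apply h2
    have h3 : (2 : F) = 1 + 1 := by norm_num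
    rw [h3]
    nth_rewrite 1 [h1]
    exact neg_add_cancel _
  -- distinctness of `t 0` from `± t j`
  have hne1 : ∀ j : Fin 5, j ≠ 0 → t 0 ≠ t j := by
    intro j hj h
    have h1 := hT.anti 0 j (Ne.symm hj)
    rw [← h, hT.sq 0] at h1
    exact hneg1 h1
  have hne2 : ∀ j : Fin 5, j ≠ 0 → t 0 ≠ -t j := by
    intro j hj h
    have h1 := hT.anti 0 j (Ne.symm hj)
    have h3 : t j = -t 0 := by rw [h, neg_neg]
    rw [h3, mul_neg, neg_mul, neg_neg, hT.sq 0] at h1
    exact hneg1 h1.symm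
  -- the four rotations
  obtain ⟨g0, hg0N, h00, h01, h0k, hf0⟩ := rot_pair hrot R h2 hES hsp t hT 0 1 (by decide)
  obtain ⟨g1, hg1N, h11, h12, h1k, hf1⟩ := rot_pair hrot R h2 hES hsp t hT 1 2 (by decide)
  obtain ⟨g2, hg2N, h22, h23, h2k, hf2⟩ := rot_pair hrot R h2 hES hsp t hT 2 3 (by decide)
  obtain ⟨g3, hg3N, h33, h34, h3k, hf3⟩ := rot_pair hrot R h2 hES hsp t hT 3 4 (by decide)
  -- the scalar
  obtain ⟨s, hs⟩ : ∃ s : G4 F, (s : M4 F) = (4 : F)⁻¹ • (1 : M4 F) :=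
    ⟨⟨(4 : F)⁻¹ • 1, (4 : F) • 1, by
        rw [Matrix.smul_mul, Matrix.one_mul, smul_smul, inv_mul_cancel₀ h4, one_smul], by
        rw [Matrix.smul_mul, Matrix.one_mul, smul_smul, mul_inv_cancel₀ h4, one_smul]⟩, rfl⟩
  have hscomm : ∀ x : G4 F, s * x * s⁻¹ = x := by
    intro x
    rw [mul_inv_eq_iff_eq_mul]
    apply Units.ext
    rw [Units.val_mul, Units.val_mul, hs, Matrix.smul_mul, Matrix.one_mul, Matrix.mul_smul,
      Matrix.mul_one]
  have hsN : s ∈ Cfsg.Geo.subgroupNormalizer R := by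
    unfold Cfsg.Geo.subgroupNormalizer
    rw [Subgroup.mem_normalizer_iff]
    intro h
    rw [hscomm]
  set y₀ : G4 F := s * g0 * g1 * g2 * g3 with hy₀
  have hy₀N : y₀ ∈ Cfsg.Geo.subgroupNormalizer R :=
    mul_mem (mul_mem (mul_mem (mul_mem hsN hg0N) hg1N) hg2N) hg3N
  have hy₀sp : y₀ ∈ Cfsg.spGL 2 F := by
    intro u v
    show Cfsg.sympForm 2 F ((y₀ : M4 F) *ᵥ u) ((y₀ : M4 F) *ᵥ v) = Cfsg.sympForm 2 F u v
    have e : ∀ w : I4 → F, (y₀ : M4 F) *ᵥ w =
        (4 : F)⁻¹ • ((g0 : M4 F) *ᵥ ((g1 : M4 F) *ᵥ ((g2 : M4 F) *ᵥ ((g3 : M4 F) *ᵥ w)))) := by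
      intro w
      rw [hy₀, Units.val_mul, Units.val_mul, Units.val_mul, Units.val_mul, hs,
        ← Matrix.mulVec_mulVec, ← Matrix.mulVec_mulVec, ← Matrix.mulVec_mulVec,
        ← Matrix.mulVec_mulVec, Matrix.smul_mulVec, Matrix.one_mulVec]
    rw [e, e, Cfsg.Agent.H17.sympForm_smul_left, Cfsg.Agent.H17.sympForm_smul_right, hf0, hf1,
      hf2, hf3]
    field_simp
    norm_num
  -- the conjugation action of `y₀` on the `t i`
  have hC0 : y₀ * t 0 * y₀⁻¹ = -t 1 := by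
    rw [hy₀, conj5, h3k 0 (by decide) (by decide), h2k 0 (by decide) (by decide),
      h1k 0 (by decide) (by decide), h00, hscomm]
  have hC1 : y₀ * t 1 * y₀⁻¹ = -t 2 := by
    rw [hy₀, conj5, h3k 1 (by decide) (by decide), h2k 1 (by decide) (by decide), h11, conj_neg,
      h0k 2 (by decide) (by decide), hscomm]
  have hC2 : y₀ * t 2 * y₀⁻¹ = -t 3 := by
    rw [hy₀, conj5, h3k 2 (by decide) (by decide), h22, conj_neg,
      h1k 3 (by decide) (by decide), conj_neg, h0k 3 (by decide) (by decide), hscomm]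
  have hC3 : y₀ * t 3 * y₀⁻¹ = -t 4 := by
    rw [hy₀, conj5, h33, conj_neg, h2k 4 (by decide) (by decide), conj_neg,
      h1k 4 (by decide) (by decide), conj_neg, h0k 4 (by decide) (by decide), hscomm]
  have hC4 : y₀ * t 4 * y₀⁻¹ = t 0 := by
    rw [hy₀, conj5, h34, h23, h12, h01, hscomm]
  -- powers
  have hCneg : ∀ h : G4 F, MulAut.conj y₀ (-h) = -(MulAut.conj y₀ h) := by
    intro h
    rw [MulAut.conj_apply, MulAut.conj_apply, conj_neg]
  have e1 : MulAut.conj y₀ (t 0) = -t 1 := by rw [MulAut.conj_apply, hC0]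
  have e2 : (MulAut.conj y₀ ^ 2) (t 0) = t 2 := by
    rw [pow_succ, pow_one, MulAut.mul_apply, e1, hCneg, MulAut.conj_apply, hC1, neg_neg]
  have e3 : (MulAut.conj y₀ ^ 3) (t 0) = -t 3 := by
    rw [pow_succ', MulAut.mul_apply, e2, MulAut.conj_apply, hC2]
  have e4 : (MulAut.conj y₀ ^ 4) (t 0) = t 4 := by
    rw [pow_succ', MulAut.mul_apply, e3, hCneg, MulAut.conj_apply, hC3, neg_neg]
  have e5 : (MulAut.conj y₀ ^ 5) (t 0) = t 0 := by
    rw [pow_succ', MulAut.mul_apply, e4, MulAut.conj_apply, hC4]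
  have e5q : ∀ q : ℕ, ((MulAut.conj y₀ ^ 5) ^ q) (t 0) = t 0 := by
    intro q
    induction q with
    | zero => rfl
    | succ q ih => rw [pow_succ, MulAut.mul_apply, e5, ih]
  have hpos : 0 < orderOf y₀ := orderOf_pos y₀
  have hn : (MulAut.conj y₀ ^ orderOf y₀) (t 0) = t 0 := by
    rw [← map_pow, pow_orderOf_eq_one, map_one]
    rfl
  have hdvd : 5 ∣ orderOf y₀ := by
    have hsplit : MulAut.conj y₀ ^ orderOf y₀ =
        MulAut.conj y₀ ^ (orderOf y₀ % 5) * (MulAut.conj y₀ ^ 5) ^ (orderOf y₀ / 5) := by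
      rw [← pow_mul, ← pow_add, Nat.mod_add_div]
    rw [hsplit, MulAut.mul_apply, e5q] at hn
    have hlt : orderOf y₀ % 5 < 5 := Nat.mod_lt _ (by norm_num)
    rw [Nat.dvd_iff_mod_eq_zero]
    generalize orderOf y₀ % 5 = r at hn hlt
    interval_cases r
    · rfl
    · rw [pow_one, e1] at hn
      exact absurd hn.symm (hne2 1 (by decide))
    · rw [e2] at hn
      exact absurd hn.symm (hne1 2 (by decide))
    · rw [e3] at hn
      exact absurd hn.symm (hne2 3 (by decide))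
    · rw [e4] at hn
      exact absurd hn.symm (hne1 4 (by decide))
  obtain ⟨q, hq⟩ := hdvd
  have hq0 : q ≠ 0 := by
    rintro rfl
    omega
  refine ⟨y₀ ^ q, pow_mem hy₀sp q, pow_mem hy₀N q, ?_⟩
  rw [orderOf_pow_of_dvd hq0 ⟨5, by rw [hq, mul_comm]⟩, hq]
  exact Nat.mul_div_cancel _ (Nat.pos_of_ne_zero hq0)

example (hrot : StRot.{u}) : StOrd5.{u} := ord5 hrot

end Cfsg.Agent.H72.ES
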