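import Mathlib
import Cfsg.Agent.H72.EeWit
import Cfsg.Agent.H72.EeWit2
import Cfsg.Agent.H42.AltRank
import Cfsg.Agent.H99.EmDefs2
import Cfsg.Agent.H49.MinusForm
import Cfsg.Agent.H49.Basic
import Cfsg.Agent.H49.GeoGlue
import Cfsg.Agent.H49.Levi

/-!
# S5990 (helper99's team project), piece EM-TWOWIT (helper72)

Characteristic `2`, `k` even, `4 ∣ m`: the involution `x = wit k F ⊕ 1₂` of `Ω⁻` (block diagonal
on `(Fin k ⊕ Fin k) ⊕ Fin 2`, `wit k F = diag(A, A⁻ᵀ)` of `H72/EeWit.lean`) fixes no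
nondegenerate minus-type `m`-space.

`N = x - 1`: `N ∘ N = 0`, `polar v (N v) = 0`, and `Q v = 0` if `N v = 0` and the two `Fin 2`
coordinates of `v` vanish.  For an invariant nondegenerate `W`: `rank (N|W)` is even (alternating
form `polar x (N y)` on `W` with radical `ker (N|W)`), `range (N|W) ≤ K'' := ker (N|W) ⊓ {the two
coordinates vanish}`, `dim ker (N|W) ≤ dim K'' + 2`; with `4 ∣ dim W` this forces
`dim W ≤ 2 dim K''`, and `K''` is totally singular.
-/

set_option autoImplicit false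
open scoped MatrixGroups

namespace Cfsg.Agent.H72.Em

open Matrix Module Cfsg.Agent.H72.Ee Cfsg.Agent.H77.Tq Cfsg.Agent.H99.Em

section Lin4

variable {F : Type*} [Field F]

/-- The abstract core. -/
theorem half_singular4 {V : Type*} [AddCommGroup V] [Module F V] [FiniteDimensional F V]
    (Q : V → F) (B : LinearMap.BilinForm F V) (hsym : ∀ x y, B x y = B y x) (N : V →ₗ[F] V)
    (α β : V →ₗ[F] F)
    (hNN : ∀ v, N (N v) = 0) (halt : ∀ x, B x (N x) = 0)
    (hαN : ∀ v, α (N v) = 0) (hβN : ∀ v, β (N v) = 0)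
    (hQ : ∀ v, N v = 0 → α v = 0 → β v = 0 → Q v = 0)
    (W : Submodule F V) (hW : ∀ v ∈ W, N v ∈ W)
    (hnd : ∀ w ∈ W, (∀ x ∈ W, B w x = 0) → w = 0) (h4 : 4 ∣ finrank F W) :
    ∃ U : Submodule F V, U ≤ W ∧ (∀ u ∈ U, Q u = 0) ∧ 2 * finrank F U = finrank F W := by
  classical
  let NW : ↥W →ₗ[F] ↥W := N.restrict hW
  have hNW : ∀ x : ↥W, ((NW x : ↥W) : V) = N (x : V) := fun x => rfl
  have hskew : ∀ x y, B x (N y) = -B y (N x) := by
    intro x y
    have h := halt (x + y)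
    simp only [map_add, LinearMap.add_apply] at h
    rw [halt x, halt y] at h
    linear_combination h
  let ω : ↥W →ₗ[F] ↥W →ₗ[F] F := B.compl₁₂ W.subtype (N ∘ₗ W.subtype)
  have hω : ∀ x y : ↥W, ω x y = B (x : V) (N (y : V)) := fun x y => rfl
  have hker : LinearMap.ker ω = LinearMap.ker NW := by
    ext x
    rw [LinearMap.mem_ker, LinearMap.mem_ker]
    constructor
    · intro hx
      apply Subtype.ext
      rw [hNW, Submodule.coe_zero]
      apply hnd _ (hW _ x.2)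
      intro y hy
      have h1 : ω x ⟨y, hy⟩ = 0 := by rw [hx]; rfl
      rw [hω] at h1
      rw [hsym, hskew, h1, neg_zero]
    · intro hx
      have hx' : N (x : V) = 0 := by
        rw [← hNW, hx]; rfl
      ext y
      rw [hω, hskew, hx', map_zero, neg_zero]
      rfl
  have h1 := Cfsg.Agent.H42.alt_even_aux (F := F) (finrank F ↥W) ↥W ω
    (fun x => by rw [hω]; exact halt _) rfl
  rw [hker] at h1
  have h2 := LinearMap.finrank_range_add_finrank_ker NW
  let αW : ↥W →ₗ[F] F := α ∘ₗ W.subtype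
  let βW : ↥W →ₗ[F] F := β ∘ₗ W.subtype
  let K' : Submodule F ↥W := LinearMap.ker NW ⊓ LinearMap.ker αW
  let K'' : Submodule F ↥W := K' ⊓ LinearMap.ker βW
  have h3 : finrank F (LinearMap.ker NW) ≤ finrank F ↥K' + 1 :=
    finrank_le_inf_ker_add_one (LinearMap.ker NW) αW
  have h4' : finrank F ↥K' ≤ finrank F ↥K'' + 1 := finrank_le_inf_ker_add_one K' βW
  have h5 : LinearMap.range NW ≤ K'' := by
    rintro _ ⟨w, rfl⟩
    refine ⟨⟨?_, ?_⟩, ?_⟩
    · show NW w ∈ LinearMap.ker NW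
      rw [LinearMap.mem_ker]
      apply Subtype.ext
      rw [hNW, hNW, Submodule.coe_zero]
      exact hNN _
    · show NW w ∈ LinearMap.ker αW
      rw [LinearMap.mem_ker]
      exact hαN _
    · show NW w ∈ LinearMap.ker βW
      rw [LinearMap.mem_ker]
      exact hβN _
  have h6 := Submodule.finrank_mono h5
  obtain ⟨j, hj⟩ := h1
  have h7 : finrank F ↥W / 2 ≤ finrank F ↥K'' := by omega
  obtain ⟨U', hU'K, hU'k⟩ := exists_sub_finrank K'' (finrank F ↥W / 2) h7
  refine ⟨U'.map W.subtype, ?_, ?_, ?_⟩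
  · rintro _ ⟨u, _, rfl⟩
    exact u.2
  · rintro _ ⟨u, hu, rfl⟩
    have hK := hU'K hu
    have hk1 : NW u = 0 := LinearMap.mem_ker.mp hK.1.1
    have hk2 : αW u = 0 := LinearMap.mem_ker.mp hK.1.2
    have hk3 : βW u = 0 := LinearMap.mem_ker.mp hK.2
    apply hQ
    · exact congrArg Subtype.val hk1
    · exact hk2
    · exact hk3
  · rw [Submodule.finrank_map_subtype_eq, hU'k]
    omega

end Lin4

section Conc4

variable (k : ℕ) (F : Type*) [Field F] (a b : F)

/-- The minus form as an orthogonal sum (definitional). -/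
theorem quadM_eq : Cfsg.quadFormMinus k F a b
    = (fun v : MI k → F => (⇑(Cfsg.Agent.H49.QP k F)) (v ∘ Sum.inl)
        + (⇑(Cfsg.Agent.H49.binQ a b)) (v ∘ Sum.inr)) := rfl

/-- The witness `x = wit k F ⊕ 1₂` as an isometry of the minus form. -/
def witMIso : ↥(Cfsg.isometryGroup F (fun v : MI k → F =>
    (⇑(Cfsg.Agent.H49.QP k F)) (v ∘ Sum.inl) + (⇑(Cfsg.Agent.H49.binQ a b)) (v ∘ Sum.inr))) :=
  Cfsg.Agent.H49.blockIso (⇑(Cfsg.Agent.H49.QP k F)) (⇑(Cfsg.Agent.H49.binQ a b))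
    (Cfsg.Agent.H49.leviO k F (aGL k F), 1)

/-- The witness as an element of `GL`. -/
def witM : GL (MI k) F := ((witMIso k F a b : ↥(Cfsg.isometryGroup F (fun v : MI k → F =>
    (⇑(Cfsg.Agent.H49.QP k F)) (v ∘ Sum.inl) + (⇑(Cfsg.Agent.H49.binQ a b)) (v ∘ Sum.inr)))) :
      GL (MI k) F)

theorem witM_coe : ((witM k F a b : GL (MI k) F) : Matrix (MI k) (MI k) F)
    = Matrix.fromBlocks ((wit k F : GL (Fin k ⊕ Fin k) F) :
        Matrix (Fin k ⊕ Fin k) (Fin k ⊕ Fin k) F) 0 0 1 := rfl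

theorem witM_mem [Fintype F] (h2 : (2 : F) = 0) (hk : 3 ≤ k) :
    witM k F a b ∈ Cfsg.Geo.omegaGL (Cfsg.quadFormMinus k F a b) := by
  classical
  rw [quadM_eq]
  refine (Cfsg.Agent.H49.mem_omegaGL_iff _ _).2 ⟨witMIso k F a b, ?_, rfl⟩
  have h1 : Cfsg.Agent.H49.leviO k F (aGL k F)
      ∈ commutator ↥(Cfsg.isometryGroup F (⇑(Cfsg.Agent.H49.QP k F))) :=
    Cfsg.Agent.H49.leviO_mem_commutator_two k F h2 (Or.inr (by omega)) _
  exact Cfsg.Agent.H49.map_mem_commutator
    (Cfsg.Agent.H49.blockIso (⇑(Cfsg.Agent.H49.QP k F)) (⇑(Cfsg.Agent.H49.binQ a b)))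
    (Cfsg.Agent.H49.prod_mem_commutator h1 (one_mem _))

theorem witM_sq (h2 : (2 : F) = 0) : witM k F a b ^ 2 = 1 := by
  have hc : CharP F 2 := CharTwo.of_one_ne_zero_of_two_eq_zero one_ne_zero h2
  have h1 : witMIso k F a b ^ 2 = 1 := by
    unfold witMIso
    rw [← map_pow, Prod.pow_mk, ← map_pow, aGL_pow k F 2, map_one, one_pow]
    exact map_one _
  unfold witM
  rw [← SubgroupClass.coe_pow, h1]
  rfl

theorem witM_not_scalar (hk : 2 ≤ k) (z : F) :
    ((witM k F a b : GL (MI k) F) : Matrix (MI k) (MI k) F)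
      ≠ z • (1 : Matrix (MI k) (MI k) F) := by
  intro h
  apply wit_not_scalar k F hk z
  have h1 := congrArg Matrix.toBlocks₁₁ h
  rw [witM_coe, Matrix.toBlocks_fromBlocks₁₁] at h1
  rw [h1]
  ext i j
  simp [Matrix.toBlocks₁₁, Matrix.one_apply]

/-- `N = x - 1`. -/
def nBig : (MI k → F) →ₗ[F] (MI k → F) :=
  Matrix.toLin' ((witM k F a b : GL (MI k) F) : Matrix (MI k) (MI k) F) - LinearMap.id

theorem nBig_inl (v : MI k → F) : (nBig k F a b v) ∘ Sum.inl = nMap k F (v ∘ Sum.inl) := by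
  have h := Cfsg.Agent.H49.fromBlocks_diag_mulVec_inl ((wit k F : GL (Fin k ⊕ Fin k) F) :
    Matrix (Fin k ⊕ Fin k) (Fin k ⊕ Fin k) F) (1 : Matrix (Fin 2) (Fin 2) F) v
  funext s
  simp only [nBig, nMap, LinearMap.sub_apply, Matrix.toLin'_apply, LinearMap.id_apply,
    Function.comp_apply, Pi.sub_apply, witM_coe]
  have h' := congrFun h s
  rw [Function.comp_apply] at h'
  rw [h']

theorem nBig_inr (v : MI k → F) : (nBig k F a b v) ∘ Sum.inr = 0 := by
  have h := Cfsg.Agent.H49.fromBlocks_diag_mulVec_inr ((wit k F : GL (Fin k ⊕ Fin k) F) :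
    Matrix (Fin k ⊕ Fin k) (Fin k ⊕ Fin k) F) (1 : Matrix (Fin 2) (Fin 2) F) v
  funext s
  simp only [nBig, LinearMap.sub_apply, Matrix.toLin'_apply, LinearMap.id_apply,
    Function.comp_apply, Pi.sub_apply, witM_coe, Pi.zero_apply]
  have h' := congrFun h s
  rw [Function.comp_apply, Matrix.one_mulVec, Function.comp_apply] at h'
  rw [h', sub_self]

theorem nBig_nBig (v : MI k → F) : nBig k F a b (nBig k F a b v) = 0 := by
  funext s
  rcases s with s | s
  · have h := congrFun (nBig_inl k F a b (nBig k F a b v)) s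
    rw [Function.comp_apply] at h
    rw [h, nBig_inl, nMap_nMap]
    rfl
  · have h := congrFun (nBig_inr k F a b (nBig k F a b v)) s
    rw [Function.comp_apply] at h
    rw [h]
    rfl

theorem polar_nBig (v : MI k → F) :
    QuadraticMap.polar (Cfsg.quadFormMinus k F a b) v (nBig k F a b v) = 0 := by
  have h := Cfsg.Agent.H49.polar_sumQ (Cfsg.Agent.H49.QP k F) (Cfsg.Agent.H49.binQ a b) v
    (nBig k F a b v)
  have e : (⇑(Cfsg.Agent.H49.sumQ (Cfsg.Agent.H49.QP k F) (Cfsg.Agent.H49.binQ a b)))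
      = Cfsg.quadFormMinus k F a b := rfl
  rw [e] at h
  rw [h, nBig_inl, nBig_inr, QuadraticMap.polar_zero_right, add_zero]
  exact polar_nMap k F (v ∘ Sum.inl)

theorem quadM_eq_zero (hk : 0 < k) (hev : Even k) (v : MI k → F) (hN : nBig k F a b v = 0)
    (h0 : v (Sum.inr 0) = 0) (h1 : v (Sum.inr 1) = 0) : Cfsg.quadFormMinus k F a b v = 0 := by
  have e : Cfsg.quadFormMinus k F a b v
      = Cfsg.quadFormPlus k F (v ∘ Sum.inl)
        + ((v ∘ Sum.inr) 0 ^ 2 + a * (v ∘ Sum.inr) 0 * (v ∘ Sum.inr) 1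
          + b * (v ∘ Sum.inr) 1 ^ 2) := rfl
  rw [e]
  simp only [Function.comp_apply, h0, h1]
  have hN' : nMap k F (v ∘ Sum.inl) = 0 := by
    rw [← nBig_inl k F a b, hN]
    rfl
  rw [quad_eq_zero k F hk (v ∘ Sum.inl) hN' (alpha_eq_zero_of_even k F hk hev _)]
  ring

/-- `k` even: every `witM`-invariant nondegenerate subspace of dimension divisible by `4` is of
plus type. -/
theorem witM_plus (hk : 0 < k) (hev : Even k) (W : Submodule F (MI k → F))
    (hnd : Cfsg.Geo.IsNondegenerateOn (QuadraticMap.polar (Cfsg.quadFormMinus k F a b)) W)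
    (h4 : 4 ∣ Module.finrank F ↥W)
    (hinv : W.map (Matrix.toLin' ((witM k F a b : GL (MI k) F) :
      Matrix (MI k) (MI k) F)) ≤ W) :
    Cfsg.Geo.IsPlusTypeOn (Cfsg.quadFormMinus k F a b) W := by
  have hB : ∀ x y, QuadraticMap.polarBilin (Cfsg.Agent.H49.QMin k F a b) x y
      = QuadraticMap.polar (Cfsg.quadFormMinus k F a b) x y := fun x y => rfl
  obtain ⟨U, hUW, hU0, hUd⟩ := half_singular4 (Cfsg.quadFormMinus k F a b)
    (QuadraticMap.polarBilin (Cfsg.Agent.H49.QMin k F a b))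
    (fun x y => by rw [hB, hB, QuadraticMap.polar_comm]) (nBig k F a b)
    (LinearMap.proj (Sum.inr 0)) (LinearMap.proj (Sum.inr 1))
    (nBig_nBig k F a b) (fun x => by rw [hB]; exact polar_nBig k F a b x)
    (fun v => by
      have h := congrFun (nBig_inr k F a b v) 0
      rw [Function.comp_apply] at h
      rw [LinearMap.proj_apply, h]; rfl)
    (fun v => by
      have h := congrFun (nBig_inr k F a b v) 1
      rw [Function.comp_apply] at h
      rw [LinearMap.proj_apply, h]; rfl)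
    (fun v hN h0 h1 => quadM_eq_zero k F a b hk hev v hN h0 h1)
    W (fun v hv => by
      have h1 : Matrix.toLin' ((witM k F a b : GL (MI k) F) : Matrix (MI k) (MI k) F) v ∈ W :=
        hinv ⟨v, hv, rfl⟩
      exact W.sub_mem h1 hv)
    (fun w hw hall => by
      by_contra hne
      obtain ⟨-, ⟨x, hx, hxne⟩⟩ := hnd w hw hne
      exact hxne (by rw [← hB]; exact hall x hx)) h4
  exact ⟨U, hUW, hU0, hUd⟩

end Conc4

universe u

theorem twoWit : Cfsg.Agent.H99.Em.StTwoWit.{u} := by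
  intro F _ _ k m a b h2 _ hk hev hm
  refine ⟨witM k F a b, witM_mem k F a b h2 hk, witM_sq k F a b h2,
    witM_not_scalar k F a b (by omega), ?_⟩
  rintro ⟨W, ⟨hWm, hnd, hnp⟩, hinv⟩
  exact hnp (witM_plus k F a b (by omega) hev W hnd (by rw [hWm]; omega) hinv)

example : Cfsg.Agent.H99.Em.StTwoWit.{u} := twoWit

end Cfsg.Agent.H72.Em
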