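import Mathlib
import Cfsg.Agent.H72.EqR2Defs
import Cfsg.Agent.H95.OhFin
import Cfsg.Agent.H49.GeoGlue
import Cfsg.Agent.H49.Levi

/-!
# S5988 (helper42's team project), piece EQ-R2: the line `r = 2`, `q` odd (helper72)

`r2 (hA : StR2a) (hB : StR2b) (hBr : H86.Ev2.StBrP) : H42.Eq.StR2`.

* `x * x = 1`: closed `H95.Oh.fin_inv` with `pl := False` gives an invariant elliptic `m`-space.
* `x * x = -1`, `-1` a square: every invariant nondegenerate subspace is plus (`StR2a`).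
* `x * x = -1`, `-1` a nonsquare: plus iff `4 ∣ dim`, and invariant nondegenerate subspaces of
  every even dimension exist (`StR2a`).
* an `x ∈ Ω⁺` with `x * x = -1` exists iff `d` even or `q ≡ 1 (mod 8)` (`StR2b`).
-/

set_option autoImplicit false

namespace Cfsg.Agent.H72.Eq

open Cfsg.Agent.H45 Cfsg.Agent.H42.Ti Cfsg.Agent.H95.Oh Module

universe u

section Aux

variable {F : Type u} [Field F]

/-- Plus type: quadratic versus bilinear formulation (`2 ≠ 0`). -/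
theorem r2_plus_iff {d : ℕ} (h2 : (2 : F) ≠ 0)
    (B : (Fin d ⊕ Fin d → F) →ₗ[F] (Fin d ⊕ Fin d → F) →ₗ[F] F)
    (hB : ∀ x y, B x y = QuadraticMap.polar (Cfsg.quadFormPlus d F) x y)
    (hBQ : ∀ x, B x x = 2 * Cfsg.quadFormPlus d F x) (W : Submodule F (Fin d ⊕ Fin d → F)) :
    Cfsg.Geo.IsPlusTypeOn (Cfsg.quadFormPlus d F) W ↔ Plus B W := by
  constructor
  · rintro ⟨U, hUW, hU0, hUd⟩
    refine ⟨U, hUW, ?_, hUd⟩
    intro x hx y hy
    rw [hB]
    unfold QuadraticMap.polar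
    rw [hU0 x hx, hU0 y hy, hU0 (x + y) (U.add_mem hx hy)]
    simp
  · rintro ⟨U, hUW, hTI, hUd⟩
    refine ⟨U, hUW, ?_, hUd⟩
    intro x hx
    have h := hTI x hx x hx
    rw [hBQ] at h
    exact (mul_eq_zero.mp h).resolve_left h2

/-- A scalar isometry of the plus space is `± 1`. -/
theorem r2_scal_sq {d : ℕ} (hd : 1 ≤ d) (g : Matrix.GeneralLinearGroup (Fin d ⊕ Fin d) F)
    (hg : g ∈ Cfsg.isometryGroup F (Cfsg.quadFormPlus d F)) (z : F)
    (hz : (g : Matrix (Fin d ⊕ Fin d) (Fin d ⊕ Fin d) F) = z • 1) : z * z = 1 := by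
  have h := (Cfsg.Agent.H49.mem_isometryGroup_iff.mp hg)
    (Pi.single (Sum.inl ⟨0, hd⟩) 1 - (-1 : F) • Pi.single (Sum.inr ⟨0, hd⟩) 1)
  rw [hz, Matrix.smul_mulVec, Matrix.one_mulVec] at h
  have hv := Cfsg.Agent.H49.QP_single_sub d F ⟨0, hd⟩ (-1)
  change Cfsg.Agent.H49.QP d F (z • _) = Cfsg.Agent.H49.QP d F _ at h
  rw [QuadraticMap.map_smul, hv] at h
  simpa using h

theorem r2_two_ne [Fintype F] (hq : Odd (Fintype.card F)) : (2 : F) ≠ 0 := by
  intro h
  have hc : ringChar F = 2 := by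
    have : CharP F 2 := CharTwo.of_one_ne_zero_of_two_eq_zero one_ne_zero h
    exact ringChar.eq F 2
  have := FiniteField.even_card_of_char_two hc
  rcases hq with ⟨k, hk⟩
  omega

end Aux

theorem r2 (hA : StR2a.{u, u}) (hB : StR2b.{u}) (hBr : Cfsg.Agent.H86.Ev2.StBrP.{u}) :
    Cfsg.Agent.H42.Eq.StR2.{u} := by
  intro F _ _ d m hq hd hme hm hmd
  classical
  have h2 : (2 : F) ≠ 0 := r2_two_ne hq
  obtain ⟨B, hBp, hBs, hBn, hBQ, hBnd, -, hBiso⟩ := hBr F d h2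
  have hfr : finrank F (Fin d ⊕ Fin d → F) = 2 * d := by
    rw [Module.finrank_fintype_fun_eq_card, Fintype.card_sum, Fintype.card_fin]
    omega
  have hplus := r2_plus_iff h2 B hBp hBQ
  have hiso_of : ∀ x : Matrix.GeneralLinearGroup (Fin d ⊕ Fin d) F,
      x ∈ Cfsg.Geo.omegaGL (Cfsg.quadFormPlus d F) →
      x ∈ Cfsg.isometryGroup F (Cfsg.quadFormPlus d F) := by
    intro x hx
    obtain ⟨g, -, rfl⟩ := (Cfsg.Agent.H49.mem_omegaGL_iff _ x).1 hx
    exact g.2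
  have hTT1 : ∀ (x : Matrix.GeneralLinearGroup (Fin d ⊕ Fin d) F),
      (x : Matrix (Fin d ⊕ Fin d) (Fin d ⊕ Fin d) F) *
        (x : Matrix (Fin d ⊕ Fin d) (Fin d ⊕ Fin d) F) = 1 →
      (Matrix.toLin' (x : Matrix (Fin d ⊕ Fin d) (Fin d ⊕ Fin d) F) :
        Module.End F (Fin d ⊕ Fin d → F)) *
        Matrix.toLin' (x : Matrix (Fin d ⊕ Fin d) (Fin d ⊕ Fin d) F) = 1 := by
    intro x hx
    rw [Module.End.mul_eq_comp, ← Matrix.toLin'_mul, hx, Matrix.toLin'_one]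
    rfl
  have hTTm : ∀ (x : Matrix.GeneralLinearGroup (Fin d ⊕ Fin d) F),
      (x : Matrix (Fin d ⊕ Fin d) (Fin d ⊕ Fin d) F) *
        (x : Matrix (Fin d ⊕ Fin d) (Fin d ⊕ Fin d) F) = -1 →
      (Matrix.toLin' (x : Matrix (Fin d ⊕ Fin d) (Fin d ⊕ Fin d) F) :
        Module.End F (Fin d ⊕ Fin d → F)) *
        Matrix.toLin' (x : Matrix (Fin d ⊕ Fin d) (Fin d ⊕ Fin d) F) = -1 := by
    intro x hx
    rw [Module.End.mul_eq_comp, ← Matrix.toLin'_mul, hx, map_neg, Matrix.toLin'_one]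
    rfl
  have hq4 : IsSquare (-1 : F) ↔ Fintype.card F % 4 ≠ 3 := FiniteField.isSquare_neg_one_iff
  constructor
  · -- LHS → RHS
    intro hall
    by_contra hR
    have hcase : Even d ∨ Fintype.card F % 8 = 1 := by
      by_contra hc
      push Not at hc
      exact hR (Or.inr ⟨Nat.not_even_iff_odd.mp hc.1, hc.2⟩)
    obtain ⟨x, hxΩ, hxx⟩ := (hB F d h2 (by omega)).2 hcase
    have hxiso := hiso_of x hxΩ
    have hns : ∀ z : F, (x : Matrix (Fin d ⊕ Fin d) (Fin d ⊕ Fin d) F) ≠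
        z • (1 : Matrix (Fin d ⊕ Fin d) (Fin d ⊕ Fin d) F) := by
      intro z hz
      have hzz := r2_scal_sq (by omega) x hxiso z hz
      rw [hz, Matrix.smul_mul, Matrix.mul_smul, Matrix.one_mul, smul_smul, hzz, one_smul] at hxx
      have h1 := congrFun (congrFun hxx (Sum.inl ⟨0, by omega⟩)) (Sum.inl ⟨0, by omega⟩)
      rw [Matrix.neg_apply, Matrix.one_apply_eq] at h1
      apply h2
      linear_combination h1
    obtain ⟨W, ⟨hWm, hWnd, hWnp⟩, hWinv⟩ := hall x hxΩ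
      ⟨-1, by rw [pow_two, Units.val_mul, hxx]; simp⟩ hns
    have hTT'' := hTTm x hxx
    have hTiso := (hBiso x).1 hxiso
    have hWinv' : W ∈ Module.End.invtSubmodule
        (Matrix.toLin' (x : Matrix (Fin d ⊕ Fin d) (Fin d ⊕ Fin d) F)) :=
      (Module.End.mem_invtSubmodule_iff_map_le _).2 hWinv
    have hWnd' : W ⊓ perp B W = ⊥ := (hBnd W).1 hWnd
    obtain ⟨hsq, hnsq⟩ := hA F _ B _ h2 hBs hBn hTiso hTT''
    by_cases hm1 : IsSquare (-1 : F)
    · exact hWnp ((hplus W).2 (hsq hm1 W hWinv' hWnd'))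
    · have h4 := (hnsq hm1).1 W hWinv' hWnd'
      have hm4 : m % 4 = 2 := by
        have h5 : ¬ (finrank F W % 4 = 0) := fun h => hWnp ((hplus W).2 (h4.2 h))
        rw [hWm] at h5
        obtain ⟨k, hk⟩ := hme
        omega
      have hq3 : Fintype.card F % 4 = 3 := by
        by_contra h
        exact hm1 (hq4.2 h)
      have hde : Even d := by
        rcases hcase with h | h
        · exact h
        · omega
      exact hR (Or.inl ⟨hde, hq3, hm4⟩)
  · -- RHS → LHS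
    rintro hR x hxΩ ⟨z, hz⟩ hns
    have hxiso := hiso_of x hxΩ
    have hzz := r2_scal_sq (by omega) (x ^ 2) (Subgroup.pow_mem _ hxiso 2) z hz
    have hxx : (x : Matrix (Fin d ⊕ Fin d) (Fin d ⊕ Fin d) F) *
        (x : Matrix (Fin d ⊕ Fin d) (Fin d ⊕ Fin d) F) = z • 1 := by
      rw [← hz, pow_two, Units.val_mul]
    have hTiso := (hBiso x).1 hxiso
    rcases mul_self_eq_one_iff.mp hzz with rfl | rfl
    · -- `x * x = 1`
      have hTT'' := hTT1 x (by rw [hxx, one_smul])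
      obtain ⟨W, hWinv, hWnd, hWm, hWpl⟩ := Cfsg.Agent.H95.Oh.fin_inv F _ B _ h2 hBs hBn hTiso
        hTT'' m False hme hm (by rw [hfr]; omega)
      exact ⟨W, ⟨hWm, (hBnd W).2 hWnd, fun h => hWpl.1 ((hplus W).1 h)⟩,
        (Module.End.mem_invtSubmodule_iff_map_le _).1 hWinv⟩
    · -- `x * x = -1`
      have hxm : (x : Matrix (Fin d ⊕ Fin d) (Fin d ⊕ Fin d) F) *
          (x : Matrix (Fin d ⊕ Fin d) (Fin d ⊕ Fin d) F) = -1 := by
        rw [hxx, neg_smul, one_smul]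
      have hTT'' := hTTm x hxm
      rcases hR with ⟨hde, hq3, hm4⟩ | ⟨hdo, hq8⟩
      · have hm1 : ¬ IsSquare (-1 : F) := by
          rw [hq4]
          omega
        obtain ⟨-, hnsq⟩ := hA F _ B _ h2 hBs hBn hTiso hTT''
        obtain ⟨hty, hex⟩ := hnsq hm1
        obtain ⟨W, hWinv, hWnd, hWm⟩ := hex (m / 2) (by rw [hfr]; omega)
        have hWm' : finrank F W = m := by
          rw [hWm]
          obtain ⟨k, hk⟩ := hme
          omega
        refine ⟨W, ⟨hWm', (hBnd W).2 hWnd, fun h => ?_⟩,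
          (Module.End.mem_invtSubmodule_iff_map_le _).1 hWinv⟩
        have h5 := (hty W hWinv hWnd).1 ((hplus W).1 h)
        omega
      · exfalso
        have h5 := (hB F d h2 (by omega)).1 ⟨x, hxΩ, hxm⟩
        rcases h5 with h | h
        · exact (Nat.not_even_iff_odd.mpr hdo) h
        · exact hq8 h

example (hA : StR2a.{u, u}) (hB : StR2b.{u}) (hBr : Cfsg.Agent.H86.Ev2.StBrP.{u}) :
    Cfsg.Agent.H42.Eq.StR2.{u} := r2 hA hB hBr

end Cfsg.Agent.H72.Eq
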