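import Mathlib
import Cfsg.Agent.H42.EqDefs
import Cfsg.Agent.H72.EeWit

/-!
# S5988 (helper42's team project), piece EQ-UNIP (helper72)

`unip : StUnip`: the uniform witness `x = diag(A, A⁻ᵀ)`, `A = 1 + Σ_{i < d/2} E_{i, i + d/2}` of
`Cfsg.Agent.H72.Ee.pWit` (file `H72/EeWit.lean`; nondegeneracy of `W` is not even needed).
-/

set_option autoImplicit false

namespace Cfsg.Agent.H72.Eq

open Cfsg.Agent.H42.Eq

universe u

theorem unip : StUnip.{u} := by
  intro F _ _ p _ _ d hd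
  obtain ⟨x, hxΩ, hxp, hxs, hxW⟩ := Cfsg.Agent.H72.Ee.pWit (F := F) (p := p) d hd
  exact ⟨x, hxΩ, hxp, hxs, fun W hev _ hinv => hxW W hev hinv⟩

example : Cfsg.Agent.H42.Eq.StUnip.{u} := unip

end Cfsg.Agent.H72.Eq
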