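import Mathlib
import Cfsg.Agent.H66.GYDefs
import Cfsg.Agent.H11.Cores
import Cfsg.Agent.H14.Cores

/-!
# S3798 piece S3798-CHAR (helper72)
-/

set_option autoImplicit false

namespace Cfsg.Agent.H72.GY

open Cfsg Cfsg.Agent.H66.GY

universe u

/-- `O_{p,p'}(G)` is invariant under automorphisms. -/
theorem opp_aut {G : Type u} [Group G] (p : ℕ) (a : G ≃* G) (k : G) (hk : k ∈ opp p G) :
    a k ∈ opp p G := by
  have hP : (pCore p G).Characteristic := Cfsg.Agent.H11.pCore_characteristic p
  have hPn : (pCore p G).Normal := Cfsg.Agent.H14.pCore_normal p G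
  have hmap : (pCore p G).map (a : G →* G) = pCore p G :=
    (Subgroup.characteristic_iff_map_eq.mp hP) a
  have hQ : (pPrimeCore p (G ⧸ pCore p G)).Characteristic :=
    Cfsg.Agent.H11.pPrimeCore_characteristic p
  have hfix := (Subgroup.characteristic_iff_comap_eq.mp hQ)
    (QuotientGroup.congr (pCore p G) (pCore p G) a hmap).symm
  unfold opp at hk ⊢
  rw [Subgroup.mem_comap] at hk ⊢
  rw [← hfix, Subgroup.mem_comap]
  have e : ((QuotientGroup.congr (pCore p G) (pCore p G) a hmap).symm.toMonoidHom)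
      (QuotientGroup.mk' (pCore p G) (a k)) = QuotientGroup.mk' (pCore p G) k := by
    show (QuotientGroup.congr (pCore p G) (pCore p G) a hmap).symm
      (QuotientGroup.mk' (pCore p G) (a k)) = QuotientGroup.mk' (pCore p G) k
    rw [MulEquiv.symm_apply_eq, QuotientGroup.congr_mk']
  rw [e]
  exact hk

theorem char_holds : CharStatement.{u} := by
  intro G _ _ p _ hT c hc1 hcp hcK g hgp k hk
  have hp : p.Prime := Fact.out
  by_cases hg1 : g = 1
  · rw [hg1, one_mul, mul_one]
  have hcard : ∀ x : G, x ≠ 1 → x ^ p = 1 → Nat.card (Subgroup.zpowers x) = p := by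
    intro x hx1 hxp
    rw [Nat.card_zpowers]
    exact orderOf_eq_prime hxp hx1
  obtain ⟨a, ha⟩ := hT (Subgroup.zpowers c) (Subgroup.zpowers g) (hcard c hc1 hcp)
    (hcard g hg1 hgp)
  have hg : g ∈ (Subgroup.zpowers c).map a.toMonoidHom := by
    rw [ha]
    exact Subgroup.mem_zpowers g
  obtain ⟨x, hx, hxg⟩ := hg
  obtain ⟨i, rfl⟩ := hx
  -- `k = a k'` with `k' ∈ K`
  have hk' : a.symm k ∈ opp p G := opp_aut p a.symm k hk
  have hcomm : c ^ i * a.symm k = a.symm k * c ^ i :=
    ((show Commute c (a.symm k) from hcK _ hk').zpow_left i).eq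
  have h1 := congrArg a hcomm
  rw [map_mul, map_mul, MulEquiv.apply_symm_apply] at h1
  rw [← hxg]
  exact h1

example : CharStatement.{u} := char_holds

end Cfsg.Agent.H72.GY
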