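import Mathlib
import Cfsg.Agent.H66.GYDefs
import Cfsg.Agent.H14.Cores
import Cfsg.Agent.H80.PSolvable
import Cfsg.Agent.H66.HHA
import Cfsg.Agent.H66.PLength

/-!
# S3798 piece S3798-MAIN (helper72)
-/

set_option autoImplicit false

namespace Cfsg.Agent.H72.GY

open Cfsg Cfsg.Agent.H66.GY

universe u

theorem main_holds (hOm : OmegaStatement.{u}) (hSZ : SZStatement.{u})
    (hChar : CharStatement.{u}) (hOA : OmAutStatement.{u}) : MainStatement.{u} := by
  intro G _ _ p _ hp2 hpd hsol hO hT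
  have hp : p.Prime := Fact.out
  have hPn : (pCore p G).Normal := Cfsg.Agent.H14.pCore_normal p G
  have hPp : IsPGroup p (pCore p G) := Cfsg.Agent.H14.pCore_isPGroup p G
  have hKn : (opp p G).Normal := by
    unfold opp
    exact Subgroup.Normal.comap (Cfsg.Agent.H14.pPrimeCore_normal p _) _
  have hPK : pCore p G ≤ opp p G := by
    intro x hx
    unfold opp
    rw [Subgroup.mem_comap]
    have h1 : QuotientGroup.mk' (pCore p G) x = 1 := (QuotientGroup.eq_one_iff x).mpr hx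
    rw [h1]
    exact one_mem _
  have hrel : ((pCore p G).relIndex (opp p G)).Coprime p := by
    unfold opp
    rw [Cfsg.Agent.H66.relIndex_comap_mk']
    exact Cfsg.Agent.H14.pPrimeCore_coprime p _
  obtain ⟨K₀, hK₀K, hK₀c, hKdec, hGdec⟩ := hSZ G p (pCore p G) (opp p G) hPn hKn hPp hPK hrel
  have hordK₀ : ∀ x ∈ K₀, orderOf x ∣ Nat.card K₀ := by
    intro x hx
    have h1 := orderOf_dvd_natCard (⟨x, hx⟩ : K₀)
    rwa [Subgroup.orderOf_mk] at h1
  -- `P ⊓ K₀ = ⊥`
  have hPK₀ : ∀ x ∈ pCore p G, x ∈ K₀ → x = 1 := by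
    intro x hxP hxK
    obtain ⟨j, hj⟩ := hPp ⟨x, hxP⟩
    have hj' : x ^ p ^ j = 1 := by
      have h1 := congrArg Subtype.val hj
      simpa using h1
    have h1 : orderOf x ∣ p ^ j := orderOf_dvd_of_pow_eq_one hj'
    have h3 : orderOf x ∣ Nat.gcd (Nat.card K₀) (p ^ j) := Nat.dvd_gcd (hordK₀ x hxK) h1
    have h4 : Nat.gcd (Nat.card K₀) (p ^ j) = 1 := Nat.Coprime.pow_right j hK₀c
    rw [h4] at h3
    exact orderOf_eq_one_iff.mp (Nat.dvd_one.mp h3)
  by_cases hcase : ∃ c : G, c ≠ 1 ∧ c ^ p = 1 ∧ ∀ k ∈ opp p G, c * k = k * c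
  · -- CASE 1
    obtain ⟨c, hc1, hcp, hcK⟩ := hcase
    have hall := hChar G p hT c hc1 hcp hcK
    have hK₀bot : ∀ k₀ ∈ K₀, k₀ = 1 := by
      intro k₀ hk₀
      have hord : (orderOf k₀).Coprime p := Nat.Coprime.coprime_dvd_left (hordK₀ k₀ hk₀) hK₀c
      have hcent := hOA G p hp2 (pCore p G) hPn hPp k₀ hord
        (fun x hx hxp => (hall x hxp k₀ (hK₀K hk₀)).symm)
      have hmem : k₀ ∈ Subgroup.centralizer ((pCore p G : Subgroup G) : Set G) := by
        rw [Subgroup.mem_centralizer_iff]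
        intro x hx
        exact (hcent x hx).symm
      exact hPK₀ k₀ (Cfsg.Agent.H80.centralizer_pCore_le p hsol hO hmem) hk₀
    have hKP : opp p G ≤ pCore p G := by
      intro k hk
      obtain ⟨u, hu, k₀, hk₀, rfl⟩ := hKdec k hk
      rw [hK₀bot k₀ hk₀, mul_one]
      exact hu
    have hppc : pPrimeCore p (G ⧸ pCore p G) = ⊥ := by
      rw [eq_bot_iff]
      intro xb hxb
      obtain ⟨x, rfl⟩ := QuotientGroup.mk'_surjective (pCore p G) xb
      have hx : x ∈ opp p G := hxb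
      rw [Subgroup.mem_bot]
      exact (QuotientGroup.eq_one_iff x).mpr (hKP hx)
    have hsolq : IsPSolvable p (G ⧸ pCore p G) :=
      Cfsg.Agent.H80.isPSolvable_quotient p (pCore p G) hsol
    have hcoreq : pCore p (G ⧸ pCore p G) = ⊥ := Cfsg.Agent.H66.pCore_quotient_pCore_bot p
    have hcent := Cfsg.Agent.H66.centralizer_pPrimeCore_le p hsolq hcoreq
    rw [hppc] at hcent
    have htop : ∀ x : G ⧸ pCore p G, x = 1 := by
      intro x
      have h1 : x ∈ Subgroup.centralizer (((⊥ : Subgroup (G ⧸ pCore p G))) : Set _) := by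
        rw [Subgroup.mem_centralizer_iff]
        intro y hy
        have hy1 : y = 1 := hy
        rw [hy1, one_mul, mul_one]
      exact Subgroup.mem_bot.mp (hcent h1)
    have hsub : Subsingleton (G ⧸ pCore p G) := ⟨fun a b => by rw [htop a, htop b]⟩
    rw [Nat.card_of_subsingleton (1 : G ⧸ pCore p G)]
    exact Nat.coprime_one_left p
  · -- CASE 2
    push Not at hcase
    have hN : ¬ p ∣ Nat.card (Subgroup.normalizer (K₀ : Set G)) := by
      intro hdvd
      obtain ⟨n, hn⟩ := exists_prime_orderOf_dvd_card' p hdvd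
      have hnG : orderOf (n : G) = p := by rw [Subgroup.orderOf_coe, hn]
      have hn1 : (n : G) ≠ 1 := by
        intro h
        rw [h, orderOf_one] at hnG
        exact hp.one_lt.ne hnG
      have hnp : (n : G) ^ p = 1 := by
        rw [← hnG]
        exact pow_orderOf_eq_one _
      obtain ⟨hnP, hnc⟩ := hOm G p hpd hsol hO hT (n : G) hnp
      obtain ⟨k, hk, hkne⟩ := hcase (n : G) hn1 hnp
      apply hkne
      obtain ⟨u, hu, k₀, hk₀, rfl⟩ := hKdec k hk
      have hnk₀ : (n : G) * k₀ = k₀ * n := by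
        have h1 : (n : G) * k₀ * (n : G)⁻¹ * k₀⁻¹ ∈ K₀ :=
          K₀.mul_mem ((Subgroup.mem_normalizer_iff.mp n.2 k₀).mp hk₀) (K₀.inv_mem hk₀)
        have h2 : (n : G) * k₀ * (n : G)⁻¹ * k₀⁻¹ ∈ pCore p G := by
          have e : (n : G) * k₀ * (n : G)⁻¹ * k₀⁻¹ = n * (k₀ * (n : G)⁻¹ * k₀⁻¹) := by group
          rw [e]
          exact (pCore p G).mul_mem hnP (hPn.conj_mem _ ((pCore p G).inv_mem hnP) k₀)
        have h3 := hPK₀ _ h2 h1
        have h4 := mul_inv_eq_one.mp h3
        exact mul_inv_eq_iff_eq_mul.mp h4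
      calc (n : G) * (u * k₀) = (n * u) * k₀ := by rw [mul_assoc]
        _ = (u * n) * k₀ := by rw [hnc u hu]
        _ = u * (n * k₀) := by rw [mul_assoc]
        _ = u * (k₀ * n) := by rw [hnk₀]
        _ = u * k₀ * n := by rw [mul_assoc]
    have hmap : (Subgroup.normalizer (K₀ : Set G)).map (QuotientGroup.mk' (pCore p G)) = ⊤ := by
      rw [eq_top_iff]
      intro xb _
      obtain ⟨x, rfl⟩ := QuotientGroup.mk'_surjective (pCore p G) xb
      obtain ⟨u, hu, n, hn, rfl⟩ := hGdec x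
      refine ⟨n, hn, ?_⟩
      have hu1 : QuotientGroup.mk' (pCore p G) u = 1 := (QuotientGroup.eq_one_iff u).mpr hu
      rw [map_mul, hu1, one_mul]
    have hdvd : Nat.card (G ⧸ pCore p G) ∣ Nat.card (Subgroup.normalizer (K₀ : Set G)) := by
      rw [← Subgroup.card_top (G := G ⧸ pCore p G), ← hmap]
      exact Subgroup.card_map_dvd _ _
    exact Nat.Coprime.coprime_dvd_left hdvd ((Nat.Prime.coprime_iff_not_dvd hp).mpr hN).symm

example (hOm : OmegaStatement.{u}) (hSZ : SZStatement.{u}) (hChar : CharStatement.{u})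
    (hOA : OmAutStatement.{u}) : MainStatement.{u} := main_holds hOm hSZ hChar hOA

end Cfsg.Agent.H72.GY
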