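import Mathlib
import Cfsg.Agent.H66.HHFDefs

/-!
# S3786 piece S3786-LIN (helper72)
-/

set_option autoImplicit false

namespace Cfsg.Agent.H72.HHF

open Cfsg Cfsg.Agent.H66.HHF

universe u

theorem lin_holds (hF : FrobStatement.{u}) : LinStatement.{u} := by
  intro Γ _ _ p _ P₁ hN V _ _ θ ι hadd heq x k u hu
  have h1 : ι 1 = 0 := by
    have := hadd 1 (one_mem _) 1 (one_mem _)
    rw [mul_one] at this
    exact left_eq_add.mp this
  have key : ∀ n : ℕ, (u * x) ^ n * (x ^ n)⁻¹ ∈ P₁ ∧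
      ι ((u * x) ^ n * (x ^ n)⁻¹) =
        (∑ i ∈ Finset.range n, θ (QuotientGroup.mk' P₁ x) ^ i) (ι u) := by
    intro n
    induction n with
    | zero => simp [h1]
    | succ n ih =>
      obtain ⟨ih1, ih2⟩ := ih
      have e : (u * x) ^ (n + 1) * (x ^ (n + 1))⁻¹ =
          ((u * x) ^ n * (x ^ n)⁻¹) * (x ^ n * u * (x ^ n)⁻¹) := by
        rw [pow_succ, pow_succ]
        group
      have hc : x ^ n * u * (x ^ n)⁻¹ ∈ P₁ := hN.conj_mem u hu (x ^ n)
      rw [e]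
      refine ⟨mul_mem ih1 hc, ?_⟩
      rw [hadd _ ih1 _ hc, ih2, Finset.sum_range_succ, LinearMap.add_apply, ← heq (x ^ n) u hu,
        map_pow, map_pow]
  obtain ⟨k1, k2⟩ := key (p ^ k)
  refine ⟨k1, ?_⟩
  rw [k2, (hF p V (θ (QuotientGroup.mk' P₁ x)) k).1]

example (hF : FrobStatement.{u}) : LinStatement.{u} := lin_holds hF

end Cfsg.Agent.H72.HHF
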