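import Mathlib
import Cfsg.Agent.H66.HHFDefs
import Cfsg.Agent.H66.HHA

/-!
# S3786 piece S3786-MAB (helper72)
-/

set_option autoImplicit false

namespace Cfsg.Agent.H72.HHF

open Cfsg Cfsg.Agent.H66.HHF

universe u

theorem mab_holds (hNAB : NABStatement.{u}) (hWT : WTStatement.{u}) : MABStatement.{u} := by
  intro H _ _ p _ hp2 hsol hOp m hAb D hD hexp
  by_contra hcon
  -- the set `S` of `p^m`-th powers in `↥D`
  let S : Set D := {s | ∃ d : D, s = d ^ p ^ m}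
  have hSp : ∀ s ∈ S, s ^ p = 1 := by
    rintro s ⟨d, rfl⟩
    rw [← pow_mul, ← pow_succ]
    apply Subtype.ext
    rw [Subgroup.coe_pow, Subgroup.coe_one]
    exact hexp d d.2
  have hSc : ∀ e : D, ∀ s ∈ S, e * s * e⁻¹ ∈ S := by
    rintro e s ⟨d, rfl⟩
    exact ⟨e * d * e⁻¹, (conj_pow).symm⟩
  have hnc : ¬ ∀ s ∈ S, ∀ t ∈ S, s * t = t * s := by
    intro h
    apply hcon
    intro x hx y hy
    have h1 := h _ ⟨⟨x, hx⟩, rfl⟩ _ ⟨⟨y, hy⟩, rfl⟩
    have h2 := congrArg Subtype.val h1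
    simpa using h2
  obtain ⟨B₀, hB₀S, hB₀N, hB₀ab, hB₀p, b, hb, s, ⟨d, rfl⟩, hbs, hz⟩ :=
    hNAB D p hp2 hD S hSp hSc hnc
  have hKbN : (pPrimeCore p H).Normal := Cfsg.Agent.H14.pPrimeCore_normal p H
  have hKbc : (Nat.card (pPrimeCore p H)).Coprime p := Cfsg.Agent.H14.pPrimeCore_coprime p H
  have hKbcent := Cfsg.Agent.H66.centralizer_pPrimeCore_le p hsol hOp
  have hBD : B₀.map D.subtype ≤ D := by
    rintro _ ⟨x, -, rfl⟩
    exact x.2
  have hBab : ∀ a ∈ B₀.map D.subtype, ∀ b ∈ B₀.map D.subtype, a * b = b * a := by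
    rintro _ ⟨a, ha, rfl⟩ _ ⟨b', hb', rfl⟩
    have h1 := congrArg Subtype.val (hB₀ab a ha b' hb')
    simpa using h1
  have hBp : ∀ b ∈ B₀.map D.subtype, b ^ p = 1 := by
    rintro _ ⟨a, ha, rfl⟩
    have h1 := congrArg Subtype.val (hB₀p a ha)
    simpa using h1
  have hcop : ∀ A : Subgroup H, A ≤ pPrimeCore p H → (Nat.card A).Coprime p := fun A hAK =>
    Nat.Coprime.coprime_dvd_left (Subgroup.card_dvd_of_le hAK) hKbc
  have hBcent : ∀ A : Subgroup H, A ≤ pPrimeCore p H → (∀ a ∈ A, ∀ b ∈ A, a * b = b * a) →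
      (∀ d ∈ D, ∀ a ∈ A, d * a * d⁻¹ ∈ A) →
      ∀ β ∈ B₀.map D.subtype, ∀ a ∈ A, β * a = a * β := by
    intro A hAK hAab hAD
    have hle : Subgroup.closure S ≤ (Subgroup.centralizer (A : Set H)).comap D.subtype := by
      rw [Subgroup.closure_le]
      rintro s ⟨d', rfl⟩
      show ((d' ^ p ^ m : D) : H) ∈ Subgroup.centralizer (A : Set H)
      rw [Subgroup.mem_centralizer_iff]
      intro a ha
      have h1 := hAb (d' : H) (hexp d' d'.2) A hAab (hcop A hAK) (fun b hb => hAD d' d'.2 b hb)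
        a ha
      rw [Subgroup.coe_pow]
      exact h1.symm
    rintro _ ⟨β, hβ, rfl⟩ a ha
    have h1 := hle (hB₀S hβ)
    exact (Subgroup.mem_centralizer_iff.mp h1 a ha).symm
  have hyB : ∀ β ∈ B₀.map D.subtype, (d : H) * β * (d : H)⁻¹ ∈ B₀.map D.subtype := by
    rintro _ ⟨β, hβ, rfl⟩
    exact ⟨d * β * d⁻¹, hB₀N.conj_mem β hβ d, by simp⟩
  have hy : ∀ A : Subgroup H, A ≤ pPrimeCore p H → (∀ a ∈ A, ∀ b ∈ A, a * b = b * a) →
      (∀ a ∈ A, (d : H) * a * (d : H)⁻¹ ∈ A) →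
      ∀ a ∈ A, (d : H) ^ p ^ m * a = a * (d : H) ^ p ^ m := by
    intro A hAK hAab hAy a ha
    exact hAb (d : H) (hexp d d.2) A hAab (hcop A hAK) hAy a ha
  have hfin := hWT H p m (pPrimeCore p H) D (B₀.map D.subtype) hKbN hKbc hKbcent hD hBD hBab hBp
    hBcent (d : H) d.2 (hexp d d.2) hyB hy (b : H) ⟨b, hb, rfl⟩ (by
      have h1 := congrArg Subtype.val hz
      simpa using h1)
  apply hbs
  apply Subtype.ext
  simpa using hfin

example (hNAB : NABStatement.{u}) (hWT : WTStatement.{u}) : MABStatement.{u} :=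
  mab_holds hNAB hWT

end Cfsg.Agent.H72.HHF
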