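import Cfsg.Agent.H52.JwDefs
import Cfsg.Agent.H4.JkA
import Cfsg.Agent.H51.Local

/-!
# W-PC (piece of JW = S2953): `C_G(O₂(P)) ≤ O₂(P)` for `P = ⟨K, T⟩`

From JK-A: `L ∈ ℒ(T)`, so `C_G(O₂(L)) ≤ O₂(L) ≤ T ≤ P ≤ L`, hence `O₂(L) ≤ O₂(P)` and
`C_G(O₂(P)) ≤ C_G(O₂(L)) ≤ O₂(L) ≤ O₂(P)`.
-/

set_option autoImplicit false
open Cfsg

namespace Cfsg.Agent.H72.Jw

open Cfsg.Agent.H64.Jz

universe u

theorem pc : Cfsg.Agent.H52.Jw.StPC.{u} := by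
  intro G _ _ S M T K L hB
  obtain ⟨⟨hSyl, -, hC⟩, -, -⟩ := Cfsg.Agent.H4.Jk.ka S M T K L hB
  obtain ⟨-, -, -, -, -, -, -, -, hKL⟩ := hB
  have hTL : T ≤ L := hSyl.1
  have hPL : K ⊔ T ≤ L := sup_le (le_sup_left.trans hKL) hTL
  have hQT : pCoreOf 2 L ≤ T := Cfsg.Agent.Helper55.J48.pCoreOf_le_of_sylowIn hSyl
  have hQP : pCoreOf 2 L ≤ K ⊔ T := hQT.trans le_sup_right
  have hN : K ⊔ T ≤ Subgroup.normalizer (pCoreOf 2 L : Set G) :=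
    hPL.trans (Cfsg.Agent.H51.le_normalizer_pCoreOf 2 L)
  have hle : pCoreOf 2 L ≤ pCoreOf 2 (K ⊔ T) :=
    Cfsg.Agent.H51.le_pCoreOf 2 hQP hN (Cfsg.Agent.H51.pCoreOf_isPGroup 2 L)
  exact ((Subgroup.centralizer_le hle).trans hC).trans hle

example : Cfsg.Agent.H52.Jw.StPC.{u} := pc

end Cfsg.Agent.H72.Jw
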