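import Cfsg.Agent.H52.JwDefs
import Cfsg.Agent.H4.JkA

/-!
# W-PS (piece of JW = S2953): `T` is a Sylow 2-subgroup of `P = ⟨K, T⟩`

From JK-A: `L ∈ ℒ(T)`, so `T` is a Sylow 2-subgroup of `L ⊇ ⟨K, T⟩`.
-/

set_option autoImplicit false
open Cfsg

namespace Cfsg.Agent.H72.Jw

open Cfsg.Agent.H64.Jz

universe u

theorem ps : Cfsg.Agent.H52.Jw.StPS.{u} := by
  intro G _ _ S M T K L hB
  obtain ⟨⟨⟨hTL, hT2, hodd⟩, -, -⟩, -, -⟩ := Cfsg.Agent.H4.Jk.ka S M T K L hB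
  obtain ⟨-, -, -, -, -, -, -, -, hKL⟩ := hB
  have hPL : K ⊔ T ≤ L := sup_le (le_sup_left.trans hKL) hTL
  refine ⟨le_sup_right, hT2, ?_⟩
  have hdvd : T.relIndex (K ⊔ T) ∣ T.relIndex L :=
    Dvd.intro _ (Subgroup.relIndex_mul_relIndex T (K ⊔ T) L le_sup_right hPL)
  exact Odd.of_dvd_nat hodd hdvd

example : Cfsg.Agent.H52.Jw.StPS.{u} := ps

end Cfsg.Agent.H72.Jw
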