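import Cfsg.Agent.H94.JxPFacts
import Cfsg.Agent.H97.JyPFacts
import Cfsg.Agent.H51.Local

/-!
# S2953 (kill sub-project JX): the `P`-side interface `StPSide` (helper72)

For a configuration `Base S M T K L`, `D = O₂(K ⊔ T)`: `|T : D| ≤ 2` (elementwise), `T ∖ D`
inverts `K` modulo `D`, and `K` has an element of order dividing 3 outside the base `M`.
From helper97's abstract `pfacts` (whose `D` is identified with `O₂(K ⊔ T)`).
-/

set_option autoImplicit false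
open Cfsg

namespace Cfsg.Agent.H72.Jx

open Cfsg.Agent.H64.Jz

universe u

theorem pside {G : Type u} [Group G] [Finite G] (S : Sylow 2 G) (M T K L : Subgroup G)
    (hB : Cfsg.Agent.H64.Jz.Base S M T K L) :
    (∀ a ∈ T, ∀ b ∈ T, a ∉ pCoreOf 2 (K ⊔ T) → b ∉ pCoreOf 2 (K ⊔ T) →
      a * b ∈ pCoreOf 2 (K ⊔ T)) ∧
    (∀ x ∈ T, x ∉ pCoreOf 2 (K ⊔ T) → ∀ g ∈ K, x * g * x⁻¹ * g ∈ pCoreOf 2 (K ⊔ T)) ∧
    ∃ k ∈ K, k ^ 3 = 1 ∧ k ∉ M := by
  obtain ⟨hZN, hO, hM, hMJ, hT, hTS, hK, hLmax, hKJL⟩ := hB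
  obtain ⟨hchar, hsolv, hZ⟩ := hZN
  obtain ⟨L₀, hL₀max, hL₀, huniq, hsub, hsyl⟩ :=
    Cfsg.Agent.S2950.result hchar hsolv hZ hO S M hM hMJ T hT K hK
  have hLL₀ : L = L₀ := huniq L hLmax hKJL
  rw [← hLL₀] at huniq hsub hsyl
  have hsylL : IsSylowTwoIn T L := hsyl
  obtain ⟨hTL, hT2, hToddL⟩ := hsyl
  have hKL : K ≤ L := le_sup_left.trans hKJL
  have hTP : T ≤ K ⊔ T := le_sup_right
  have hKP : K ≤ K ⊔ T := le_sup_left
  have hOLT : pCoreOf 2 L ≤ T := Cfsg.Agent.Helper55.J48.pCoreOf_le_of_sylowIn hsylL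
  obtain ⟨hgen, hcomm, hrel3, -, -, -⟩ := hK.1.1
  have hOK : pCoreOf 2 K ≤ K := Subgroup.map_subtype_le _
  have hOKT : pCoreOf 2 K ≤ T := (Cfsg.Agent.H54.Uq.o2sn K L hKL hsub).trans hOLT
  have hKn : (K.subgroupOf (K ⊔ T)).Normal :=
    Cfsg.Agent.S2952.result hchar hsolv hZ hO S M hM hMJ T hT K hK
  have hPNK : K ⊔ T ≤ Subgroup.normalizer (K : Set G) :=
    (Subgroup.normal_subgroupOf_iff_le_normalizer hKP).1 hKn
  have hTNK : T ≤ Subgroup.normalizer (K : Set G) := hTP.trans hPNK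
  have hNO : Subgroup.normalizer (K : Set G) ≤ Subgroup.normalizer (pCoreOf 2 K : Set G) :=
    Cfsg.Agent.H31.X.H54.normalizer_le_normalizer_pCoreOf (p := 2) K
  obtain ⟨D, k, hDT, hOD, hKD, hTD, hidx, hinv, -, -, hkK, hkO, hk3, hKgen, hdich⟩ :=
    Cfsg.Agent.H97.Jy.pfacts K T (pCoreOf 2 K) hT2 hTNK hOK hOKT hrel3
      (Subgroup.le_normalizer.trans hNO) (hTNK.trans hNO) hgen
  have hTM : T ≤ M := hT.1.2.2.1
  have hDeq : D = pCoreOf 2 (K ⊔ T) := by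
    apply le_antisymm
    · exact Cfsg.Agent.H51.le_pCoreOf 2 (hDT.trans hTP) (sup_le hKD hTD) (hT2.to_le hDT)
    · rcases hdich (pCoreOf 2 (K ⊔ T)) (Cfsg.Agent.H51.pCoreOf_le 2 _)
        (Cfsg.Agent.H51.le_normalizer_pCoreOf 2 _) with h | h
      · exact h
      · exfalso
        have hk2 : IsPGroup 2 ↥(pCoreOf 2 (K ⊔ T)) := Cfsg.Agent.H51.pCoreOf_isPGroup 2 _
        have hodd : Odd (orderOf k) := by
          have hd : orderOf k ∣ 3 := orderOf_dvd_of_pow_eq_one hk3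
          rcases (Nat.dvd_prime Nat.prime_three).mp hd with h1 | h1
          · rw [h1]; exact odd_one
          · rw [h1]; decide
        have hk1 : k = 1 := Cfsg.Agent.H97.Jy.eq_one_of_odd_of_two hk2 (h hkK) hodd
        exact hkO (hk1 ▸ Subgroup.one_mem _)
  subst hDeq
  refine ⟨hidx, fun x hx hxD g hg => hOD (hinv x hx hxD g hg), k, hkK, hk3, ?_⟩
  intro hkM
  apply hK.2.1
  intro g hg
  obtain ⟨o, ho, i, rfl⟩ := hKgen g hg
  exact M.mul_mem (hTM (hOKT ho)) (M.pow_mem hkM i)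

end Cfsg.Agent.H72.Jx
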