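import Cfsg.Agent.H46.OutGG2Defs

/-!
# OG-NOFLIP-G2 (helper72, for helper46's S2121)

`G₂`, characteristic not 3, a field with an element `ζ ≠ 0, -1`: no automorphism swaps the root subgroups
of the short fundamental root (index 7) and of the long one (index 6).

Invariant `R(i, j)`: for all `t u v w`, `x_j(w)` commutes with `[x_i(v), c]`, where
`c = x_j(u)⁻¹ x_i(t)⁻¹ x_j(u) x_i(t)`.  It holds for `(i, j) = (6, 7)` and fails for `(7, 6)`.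
-/

set_option autoImplicit false

namespace Cfsg.Agent.H72.OutG

open Cfsg.Lie Cfsg.Agent.H23 Cfsg.Agent.H23.Stb Cfsg.Agent.H46.OutE Cfsg.Agent.H46.OutG

universe u

variable (F : Type u) [Field F]

/-- The root element `x_r(t)` of `G₂`, in the general linear group. -/
noncomputable abbrev X (r : ℕ) (t : F) : GL chevG2.Idx F := xU (packS_G2 F).hP.sem r t

variable {F}

theorem g2_ct_6_7 : chevG2.commTerms 6 7 = [(8, 1, 1, 1), (9, 1, 1, 2), (10, -1, 1, 3), (11, -2, 2, 3)] := by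
  decide +kernel
theorem g2_ct_7_6 : chevG2.commTerms 7 6 = [(8, -1, 1, 1), (9, 1, 2, 1), (10, 1, 3, 1), (11, 1, 3, 2)] := by
  decide +kernel
theorem g2_ct_7_8 : chevG2.commTerms 7 8 = [(9, -2, 1, 1), (10, -3, 2, 1), (11, 3, 1, 2)] := by
  decide +kernel
theorem g2_ct_7_9 : chevG2.commTerms 7 9 = [(10, 3, 1, 1)] := by decide +kernel
theorem g2_ct_6_10 : chevG2.commTerms 6 10 = [(11, 1, 1, 1)] := by decide +kernel
theorem g2_ct_8_9 : chevG2.commTerms 8 9 = [(11, 3, 1, 1)] := by decide +kernel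
theorem g2_ct_nil : chevG2.commTerms 7 10 = [] ∧ chevG2.commTerms 7 11 = [] ∧ chevG2.commTerms 6 8 = [] ∧
    chevG2.commTerms 6 9 = [] ∧ chevG2.commTerms 6 11 = [] ∧ chevG2.commTerms 8 10 = [] ∧
    chevG2.commTerms 8 11 = [] ∧ chevG2.commTerms 9 10 = [] ∧ chevG2.commTerms 9 11 = [] ∧
    chevG2.commTerms 10 11 = [] := by decide +kernel

theorem g2_neg : chevG2.neg 6 = 5 ∧ chevG2.neg 7 = 4 ∧ chevG2.neg 8 = 3 ∧ chevG2.neg 9 = 2 ∧
    chevG2.neg 10 = 1 ∧ chevG2.neg 11 = 0 := by decide +kernel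

theorem g2_nroots : chevG2.nroots = 12 := rfl

/-- Commuting root elements. -/
theorem g2_comm_nil (r s : ℕ) (hr : r < 12) (hs : s < 12) (hne : s ≠ r) (hne' : s ≠ chevG2.neg r)
    (h : chevG2.commTerms r s = []) (t u : F) : X F s u * X F r t = X F r t * X F s u := by
  have h1 := commG2 F r s hr hs hne hne' t u
  rw [ChevalleyDatum.commWord, h] at h1
  simpa [wordU] using h1

theorem g2_c76 (t u : F) : X F 6 u * X F 7 t =
    X F 7 t * X F 6 u * (X F 8 (t * u) * X F 9 (t ^ 2 * u) * X F 10 (-(t ^ 3 * u)) * X F 11 (-(t ^ 3 * u ^ 2))) := by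
  have h1 := commG2 F 7 6 (by decide) (by decide) (by decide) (by decide) t u
  rw [ChevalleyDatum.commWord, g2_ct_7_6] at h1
  simp only [List.map_cons, List.map_nil, wordU_cons, wordU_nil, mul_one] at h1
  rw [h1]
  have e8 : ((-1 : ℤ) : F) * (-t) ^ 1 * u ^ 1 = t * u := by push_cast; ring
  have e9 : ((1 : ℤ) : F) * (-t) ^ 2 * u ^ 1 = t ^ 2 * u := by push_cast; ring
  have e10 : ((1 : ℤ) : F) * (-t) ^ 3 * u ^ 1 = -(t ^ 3 * u) := by push_cast; ring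
  have e11 : ((1 : ℤ) : F) * (-t) ^ 3 * u ^ 2 = -(t ^ 3 * u ^ 2) := by push_cast; ring
  rw [e8, e9, e10, e11]
  simp only [mul_assoc]

theorem g2_c67 (t u : F) : ∃ α β γ δ : F, X F 7 u * X F 6 t =
    X F 6 t * X F 7 u * (X F 8 α * X F 9 β * X F 10 γ * X F 11 δ) := by
  have h1 := commG2 F 6 7 (by decide) (by decide) (by decide) (by decide) t u
  rw [ChevalleyDatum.commWord, g2_ct_6_7] at h1
  simp only [List.map_cons, List.map_nil, wordU_cons, wordU_nil, mul_one] at h1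
  refine ⟨((1 : ℤ) : F) * (-t) ^ 1 * u ^ 1, ((1 : ℤ) : F) * (-t) ^ 1 * u ^ 2,
    ((-1 : ℤ) : F) * (-t) ^ 1 * u ^ 3, ((-2 : ℤ) : F) * (-t) ^ 2 * u ^ 3, ?_⟩
  rw [h1]
  simp only [mul_assoc]

theorem g2_c78 (t s : F) : X F 8 s * X F 7 t =
    X F 7 t * X F 8 s * (X F 9 (2 * t * s) * X F 10 (-(3 * t ^ 2 * s)) * X F 11 (-(3 * t * s ^ 2))) := by
  have h1 := commG2 F 7 8 (by decide) (by decide) (by decide) (by decide) t s
  rw [ChevalleyDatum.commWord, g2_ct_7_8] at h1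
  simp only [List.map_cons, List.map_nil, wordU_cons, wordU_nil, mul_one] at h1
  rw [h1]
  have e9 : ((-2 : ℤ) : F) * (-t) ^ 1 * s ^ 1 = 2 * t * s := by push_cast; ring
  have e10 : ((-3 : ℤ) : F) * (-t) ^ 2 * s ^ 1 = -(3 * t ^ 2 * s) := by push_cast; ring
  have e11 : ((3 : ℤ) : F) * (-t) ^ 1 * s ^ 2 = -(3 * t * s ^ 2) := by push_cast; ring
  rw [e9, e10, e11]
  simp only [mul_assoc]

theorem g2_c79 (t s : F) : X F 9 s * X F 7 t = X F 7 t * X F 9 s * X F 10 (-(3 * t * s)) := by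
  have h1 := commG2 F 7 9 (by decide) (by decide) (by decide) (by decide) t s
  rw [ChevalleyDatum.commWord, g2_ct_7_9] at h1
  simp only [List.map_cons, List.map_nil, wordU_cons, wordU_nil, mul_one] at h1
  rw [h1]
  have e10 : ((3 : ℤ) : F) * (-t) ^ 1 * s ^ 1 = -(3 * t * s) := by push_cast; ring
  rw [e10]

theorem g2_c6_10 (t s : F) : X F 10 s * X F 6 t = X F 6 t * X F 10 s * X F 11 (-(t * s)) := by
  have h1 := commG2 F 6 10 (by decide) (by decide) (by decide) (by decide) t s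
  rw [ChevalleyDatum.commWord, g2_ct_6_10] at h1
  simp only [List.map_cons, List.map_nil, wordU_cons, wordU_nil, mul_one] at h1
  rw [h1]
  have e11 : ((1 : ℤ) : F) * (-t) ^ 1 * s ^ 1 = -(t * s) := by push_cast; ring
  rw [e11]

theorem g2_c89 (t s : F) : X F 9 s * X F 8 t = X F 8 t * X F 9 s * X F 11 (-(3 * t * s)) := by
  have h1 := commG2 F 8 9 (by decide) (by decide) (by decide) (by decide) t s
  rw [ChevalleyDatum.commWord, g2_ct_8_9] at h1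
  simp only [List.map_cons, List.map_nil, wordU_cons, wordU_nil, mul_one] at h1
  rw [h1]
  have e11 : ((3 : ℤ) : F) * (-t) ^ 1 * s ^ 1 = -(3 * t * s) := by push_cast; ring
  rw [e11]

/-! ## Group-theoretic bookkeeping -/

/-- `x_6(v) g = g x_{11}(q) x_6(v)`, and `g` commutes with `X_{11}`. -/
def P6 (v : F) (g : GL chevG2.Idx F) (q : F) : Prop :=
  X F 6 v * g = g * X F 11 q * X F 6 v ∧ ∀ s : F, X F 11 s * g = g * X F 11 s

theorem g2_c11_11 (s t : F) : X F 11 s * X F 11 t = X F 11 t * X F 11 s := by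
  unfold X
  rw [xU_mul, xU_mul, add_comm]

theorem g2_c6_11 (v s : F) : X F 6 v * X F 11 s = X F 11 s * X F 6 v :=
  (g2_comm_nil 6 11 (by decide) (by decide) (by decide) (by decide) g2_ct_nil.2.2.2.2.1 v s).symm

theorem g2_X_zero (r : ℕ) : X F r 0 = 1 := xU_zero _ r

theorem g2_X_mul (r : ℕ) (s t : F) : X F r s * X F r t = X F r (s + t) := xU_mul _ r s t

theorem g2_X_inv (r : ℕ) (s : F) : (X F r s)⁻¹ = X F r (-s) := xU_inv _ r s

theorem P6_mul {v : F} {g g' : GL chevG2.Idx F} {q q' : F} (h : P6 v g q) (h' : P6 v g' q') :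
    P6 v (g * g') (q + q') := by
  refine ⟨?_, fun s => ?_⟩
  · calc X F 6 v * (g * g') = (X F 6 v * g) * g' := by rw [mul_assoc]
      _ = g * X F 11 q * (X F 6 v * g') := by rw [h.1]; simp only [mul_assoc]
      _ = g * (X F 11 q * g') * X F 11 q' * X F 6 v := by rw [h'.1]; simp only [mul_assoc]
      _ = g * (g' * X F 11 q) * X F 11 q' * X F 6 v := by rw [h'.2 q]
      _ = g * g' * X F 11 (q + q') * X F 6 v := by rw [← g2_X_mul]; simp only [mul_assoc]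
  · calc X F 11 s * (g * g') = (X F 11 s * g) * g' := by rw [mul_assoc]
      _ = g * (X F 11 s * g') := by rw [h.2 s]; simp only [mul_assoc]
      _ = g * g' * X F 11 s := by rw [h'.2 s]; simp only [mul_assoc]

theorem P6_inv {v : F} {g : GL chevG2.Idx F} {q : F} (h : P6 v g q) : P6 v g⁻¹ (-q) := by
  have h2 : ∀ s : F, X F 11 s * g⁻¹ = g⁻¹ * X F 11 s := by
    intro s
    have := h.2 s
    calc X F 11 s * g⁻¹ = g⁻¹ * (g * X F 11 s) * g⁻¹ := by group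
      _ = g⁻¹ * (X F 11 s * g) * g⁻¹ := by rw [this]
      _ = g⁻¹ * X F 11 s := by group
  refine ⟨?_, h2⟩
  have h1 := h.1
  have hk : g⁻¹ * X F 6 v = X F 11 q * X F 6 v * g⁻¹ := by
    calc g⁻¹ * X F 6 v = g⁻¹ * (X F 6 v * g) * g⁻¹ := by group
      _ = g⁻¹ * (g * X F 11 q * X F 6 v) * g⁻¹ := by rw [h1]
      _ = X F 11 q * X F 6 v * g⁻¹ := by group
  calc X F 6 v * g⁻¹ = (X F 11 q)⁻¹ * (X F 11 q * X F 6 v * g⁻¹) := by group
    _ = (X F 11 q)⁻¹ * (g⁻¹ * X F 6 v) := by rw [hk]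
    _ = (X F 11 (-q) * g⁻¹) * X F 6 v := by rw [g2_X_inv, mul_assoc]
    _ = g⁻¹ * X F 11 (-q) * X F 6 v := by rw [h2 (-q)]

theorem P6_8 (v s : F) : P6 v (X F 8 s) 0 := by
  refine ⟨?_, fun s' => ?_⟩
  · rw [g2_X_zero, mul_one]
    exact (g2_comm_nil 6 8 (by decide) (by decide) (by decide) (by decide) g2_ct_nil.2.2.1 v s).symm
  · exact g2_comm_nil 8 11 (by decide) (by decide) (by decide) (by decide) g2_ct_nil.2.2.2.2.2.2.1 s s'

theorem P6_9 (v s : F) : P6 v (X F 9 s) 0 := by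
  refine ⟨?_, fun s' => ?_⟩
  · rw [g2_X_zero, mul_one]
    exact (g2_comm_nil 6 9 (by decide) (by decide) (by decide) (by decide) g2_ct_nil.2.2.2.1 v s).symm
  · exact g2_comm_nil 9 11 (by decide) (by decide) (by decide) (by decide) g2_ct_nil.2.2.2.2.2.2.2.2.1 s s'

theorem P6_11 (v s : F) : P6 v (X F 11 s) 0 := by
  refine ⟨?_, fun s' => g2_c11_11 s' s⟩
  rw [g2_X_zero, mul_one]
  exact g2_c6_11 v s

theorem P6_10 (v s : F) : P6 v (X F 10 s) (v * s) := by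
  refine ⟨?_, fun s' => ?_⟩
  · have h := g2_c6_10 v s
    have e : X F 11 (-(v * s)) * X F 11 (v * s) = 1 := by rw [g2_X_mul, neg_add_cancel, g2_X_zero]
    calc X F 6 v * X F 10 s = X F 6 v * X F 10 s * (X F 11 (-(v * s)) * X F 11 (v * s)) := by
          rw [e, mul_one]
      _ = (X F 6 v * X F 10 s * X F 11 (-(v * s))) * X F 11 (v * s) := by simp only [mul_assoc]
      _ = X F 10 s * (X F 6 v * X F 11 (v * s)) := by rw [← h, mul_assoc]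
      _ = X F 10 s * X F 11 (v * s) * X F 6 v := by rw [g2_c6_11, mul_assoc]
  · exact g2_comm_nil 10 11 (by decide) (by decide) (by decide) (by decide) g2_ct_nil.2.2.2.2.2.2.2.2.2 s s'

/-- Conjugation by `x_6(v)` of an element with `P6`. -/
theorem P6_conj {v : F} {g : GL chevG2.Idx F} {q : F} (h : P6 v g q) :
    X F 6 v * g * (X F 6 v)⁻¹ = g * X F 11 q := by
  rw [h.1]; group

/-! ## The invariant holds for `(6, 7)` -/

theorem g2_inv67 (t u v w : F) :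
    X F 7 w * (X F 6 v * ((X F 7 u)⁻¹ * (X F 6 t)⁻¹ * X F 7 u * X F 6 t) * (X F 6 v)⁻¹ *
        ((X F 7 u)⁻¹ * (X F 6 t)⁻¹ * X F 7 u * X F 6 t)⁻¹) =
      (X F 6 v * ((X F 7 u)⁻¹ * (X F 6 t)⁻¹ * X F 7 u * X F 6 t) * (X F 6 v)⁻¹ *
        ((X F 7 u)⁻¹ * (X F 6 t)⁻¹ * X F 7 u * X F 6 t)⁻¹) * X F 7 w := by
  obtain ⟨α, β, γ, δ, h⟩ := g2_c67 t u
  have hc : (X F 7 u)⁻¹ * (X F 6 t)⁻¹ * X F 7 u * X F 6 t = X F 8 α * X F 9 β * X F 10 γ * X F 11 δ := by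
    calc (X F 7 u)⁻¹ * (X F 6 t)⁻¹ * X F 7 u * X F 6 t = (X F 7 u)⁻¹ * (X F 6 t)⁻¹ * (X F 7 u * X F 6 t) := by
          simp only [mul_assoc]
      _ = X F 8 α * X F 9 β * X F 10 γ * X F 11 δ := by rw [h]; group
  rw [hc]
  have hP : P6 v (X F 8 α * X F 9 β * X F 10 γ * X F 11 δ) (0 + 0 + v * γ + 0) :=
    P6_mul (P6_mul (P6_mul (P6_8 v α) (P6_9 v β)) (P6_10 v γ)) (P6_11 v δ)
  rw [P6_conj hP]
  have hd : X F 8 α * X F 9 β * X F 10 γ * X F 11 δ * X F 11 (0 + 0 + v * γ + 0) *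
      (X F 8 α * X F 9 β * X F 10 γ * X F 11 δ)⁻¹ = X F 11 (0 + 0 + v * γ + 0) := by
    rw [← hP.2]
    group
  rw [hd]
  exact (g2_comm_nil 7 11 (by decide) (by decide) (by decide) (by decide) g2_ct_nil.2.1 w _).symm

/-! ## The invariant fails for `(7, 6)` -/

theorem g2_conj7_8 (v s : F) : X F 7 v * X F 8 s * (X F 7 v)⁻¹ =
    X F 8 s * (X F 9 (-(2 * v * s)) * X F 10 (-(3 * v ^ 2 * s)) * X F 11 (3 * v * s ^ 2)) := by
  have h := g2_c78 (-v) s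
  have e9 : (2 : F) * -v * s = -(2 * v * s) := by ring
  have e10 : -((3 : F) * (-v) ^ 2 * s) = -(3 * v ^ 2 * s) := by ring
  have e11 : -((3 : F) * -v * s ^ 2) = 3 * v * s ^ 2 := by ring
  rw [e9, e10, e11] at h
  calc X F 7 v * X F 8 s * (X F 7 v)⁻¹ = X F 7 v * (X F 8 s * X F 7 (-v)) := by
        rw [g2_X_inv, mul_assoc]
    _ = X F 8 s * (X F 9 (-(2 * v * s)) * X F 10 (-(3 * v ^ 2 * s)) * X F 11 (3 * v * s ^ 2)) := by
        rw [h, ← g2_X_inv]; group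

theorem g2_conj7_9 (v s : F) : X F 7 v * X F 9 s * (X F 7 v)⁻¹ = X F 9 s * X F 10 (3 * v * s) := by
  have h := g2_c79 (-v) s
  have e10 : -((3 : F) * -v * s) = 3 * v * s := by ring
  rw [e10] at h
  calc X F 7 v * X F 9 s * (X F 7 v)⁻¹ = X F 7 v * (X F 9 s * X F 7 (-v)) := by
        rw [g2_X_inv, mul_assoc]
    _ = X F 9 s * X F 10 (3 * v * s) := by
        rw [h, ← g2_X_inv]; group

theorem g2_conj7_10 (v s : F) : X F 7 v * X F 10 s * (X F 7 v)⁻¹ = X F 10 s := by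
  have h := g2_comm_nil 7 10 (by decide) (by decide) (by decide) (by decide) g2_ct_nil.1 v s
  rw [← h]; group

theorem g2_conj7_11 (v s : F) : X F 7 v * X F 11 s * (X F 7 v)⁻¹ = X F 11 s := by
  have h := g2_comm_nil 7 11 (by decide) (by decide) (by decide) (by decide) g2_ct_nil.2.1 v s
  rw [← h]; group

theorem g2_ninv76 (h3 : (3 : F) ≠ 0) (ζ : F) (hζ : ζ ≠ 0) (hζ1 : ζ + 1 ≠ 0) :
    X F 6 1 * (X F 7 (-ζ) * ((X F 6 1)⁻¹ * (X F 7 1)⁻¹ * X F 6 1 * X F 7 1) * (X F 7 (-ζ))⁻¹ *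
        ((X F 6 1)⁻¹ * (X F 7 1)⁻¹ * X F 6 1 * X F 7 1)⁻¹) ≠
      (X F 7 (-ζ) * ((X F 6 1)⁻¹ * (X F 7 1)⁻¹ * X F 6 1 * X F 7 1) * (X F 7 (-ζ))⁻¹ *
        ((X F 6 1)⁻¹ * (X F 7 1)⁻¹ * X F 6 1 * X F 7 1)⁻¹) * X F 6 1 := by
  intro hcomm
  have h := g2_c76 (1 : F) 1
  have hc : (X F 6 1)⁻¹ * (X F 7 1)⁻¹ * X F 6 1 * X F 7 1 =
      X F 8 1 * X F 9 1 * X F 10 (-1) * X F 11 (-1) := by
    calc (X F 6 1)⁻¹ * (X F 7 1)⁻¹ * X F 6 1 * X F 7 1 = (X F 6 1)⁻¹ * (X F 7 1)⁻¹ * (X F 6 1 * X F 7 1) := by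
          simp only [mul_assoc]
      _ = X F 8 (1 * 1) * X F 9 (1 ^ 2 * 1) * X F 10 (-(1 ^ 3 * 1)) * X F 11 (-(1 ^ 3 * 1 ^ 2)) := by
          rw [h]; group
      _ = X F 8 1 * X F 9 1 * X F 10 (-1) * X F 11 (-1) := by norm_num
  rw [hc] at hcomm
  have hk : X F 7 (-ζ) * (X F 8 1 * X F 9 1 * X F 10 (-1) * X F 11 (-1)) * (X F 7 (-ζ))⁻¹ =
      (X F 7 (-ζ) * X F 8 1 * (X F 7 (-ζ))⁻¹) * (X F 7 (-ζ) * X F 9 1 * (X F 7 (-ζ))⁻¹) *
        (X F 7 (-ζ) * X F 10 (-1) * (X F 7 (-ζ))⁻¹) * (X F 7 (-ζ) * X F 11 (-1) * (X F 7 (-ζ))⁻¹) := by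
    group
  rw [hk, g2_conj7_8, g2_conj7_9, g2_conj7_10, g2_conj7_11] at hcomm
  have hP1 : P6 1 (X F 8 1 * (X F 9 (-(2 * -ζ * 1)) * X F 10 (-(3 * (-ζ) ^ 2 * 1)) * X F 11 (3 * -ζ * 1 ^ 2)) *
      (X F 9 1 * X F 10 (3 * -ζ * 1)) * X F 10 (-1) * X F 11 (-1))
      (0 + (0 + 1 * (-(3 * (-ζ) ^ 2 * 1)) + 0) + (0 + 1 * (3 * -ζ * 1)) + 1 * (-1) + 0) :=
    P6_mul (P6_mul (P6_mul (P6_mul (P6_8 1 1) (P6_mul (P6_mul (P6_9 1 _) (P6_10 1 _)) (P6_11 1 _)))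
      (P6_mul (P6_9 1 1) (P6_10 1 _))) (P6_10 1 (-1))) (P6_11 1 (-1))
  have hP2 : P6 1 (X F 8 1 * X F 9 1 * X F 10 (-1) * X F 11 (-1))⁻¹ (-(0 + 0 + 1 * (-1) + 0)) :=
    P6_inv (P6_mul (P6_mul (P6_mul (P6_8 1 1) (P6_9 1 1)) (P6_10 1 (-1))) (P6_11 1 (-1)))
  have hP := P6_mul hP1 hP2
  rw [hP.1] at hcomm
  have hz : X F 11 ((0 + (0 + 1 * (-(3 * (-ζ) ^ 2 * 1)) + 0) + (0 + 1 * (3 * -ζ * 1)) + 1 * (-1) + 0) +
      (-(0 + 0 + 1 * (-1) + 0))) = 1 := by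
    have := mul_right_cancel hcomm
    exact mul_left_cancel (this.trans (mul_one _).symm)
  have hq := xU_eq_one_imp (packS_G2 F).hP.sem (packS_G2 F).hP.tab (packS_G2 F).hP.tab2 11 (by decide) _ hz
  have hq' : (3 : F) * (ζ * (ζ + 1)) = 0 := by linear_combination -hq
  rcases mul_eq_zero.mp hq' with h0 | h0
  · exact h3 h0
  · rcases mul_eq_zero.mp h0 with h0 | h0
    · exact hζ h0
    · exact hζ1 h0

/-! ## The piece -/

theorem g2_simple : chevG2.simple 0 = 7 ∧ chevG2.simple 1 = 6 := by decide +kernel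

/-- **OG-NOFLIP-G2**. -/
theorem noFlipG2 : StNoFlipG2.{u} := by
  intro F _ h3 hζ θ hθ
  obtain ⟨ζ, hζ0, hζ1⟩ := hζ
  obtain ⟨h76, h67⟩ := hθ
  rw [g2_simple.1, g2_simple.2] at h76 h67
  -- `θ` maps `X_7` onto `X_6` and `X_6` onto `X_7`
  obtain ⟨t, ht⟩ := h67.2 1
  obtain ⟨v, hv⟩ := h67.2 (-ζ)
  obtain ⟨w, hw⟩ := h76.2 1
  have hA := g2_inv67 t w v w
  have hA' : xG (packS_G2 F).hP.sem 7 w * (xG (packS_G2 F).hP.sem 6 v *
        ((xG (packS_G2 F).hP.sem 7 w)⁻¹ * (xG (packS_G2 F).hP.sem 6 t)⁻¹ * xG (packS_G2 F).hP.sem 7 w *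
          xG (packS_G2 F).hP.sem 6 t) * (xG (packS_G2 F).hP.sem 6 v)⁻¹ *
        ((xG (packS_G2 F).hP.sem 7 w)⁻¹ * (xG (packS_G2 F).hP.sem 6 t)⁻¹ * xG (packS_G2 F).hP.sem 7 w *
          xG (packS_G2 F).hP.sem 6 t)⁻¹) =
      (xG (packS_G2 F).hP.sem 6 v *
        ((xG (packS_G2 F).hP.sem 7 w)⁻¹ * (xG (packS_G2 F).hP.sem 6 t)⁻¹ * xG (packS_G2 F).hP.sem 7 w *
          xG (packS_G2 F).hP.sem 6 t) * (xG (packS_G2 F).hP.sem 6 v)⁻¹ *
        ((xG (packS_G2 F).hP.sem 7 w)⁻¹ * (xG (packS_G2 F).hP.sem 6 t)⁻¹ * xG (packS_G2 F).hP.sem 7 w *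
          xG (packS_G2 F).hP.sem 6 t)⁻¹) * xG (packS_G2 F).hP.sem 7 w := by
    apply Subtype.ext
    exact hA
  have hB := congrArg θ hA'
  simp only [map_mul, map_inv, ht, hv, hw] at hB
  have hB' := congrArg Subtype.val hB
  exact g2_ninv76 h3 ζ hζ0 hζ1 hB'

example : StNoFlipG2.{u} := noFlipG2

end Cfsg.Agent.H72.OutG
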