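import Mathlib
import Cfsg.Agent.H56.OrdDefs
import Cfsg.Agent.S0245
import Cfsg.Agent.H6.SpCenter

/-!
# S2363 piece S2363-PSP (helper72): the order bounds for `PSp_{2m}(F)`, `m ≥ 2`
-/

set_option autoImplicit false

namespace Cfsg.Agent.H72.Ord

open Cfsg Cfsg.Agent.H56.Ord

theorem prod_sp_le (q : ℕ) (m : ℕ) :
    ∏ i ∈ Finset.range m, (q ^ (2 * (i + 1)) - 1) ≤ q ^ (m * (m + 1)) := by
  induction m with
  | zero => simp
  | succ m ih =>
    rw [Finset.prod_range_succ]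
    calc (∏ i ∈ Finset.range m, (q ^ (2 * (i + 1)) - 1)) * (q ^ (2 * (m + 1)) - 1)
        ≤ q ^ (m * (m + 1)) * q ^ (2 * (m + 1)) :=
          Nat.mul_le_mul ih (Nat.sub_le _ _)
      _ = q ^ ((m + 1) * (m + 1 + 1)) := by rw [← pow_add]; congr 1; ring

theorem prod_sp_lt (q : ℕ) (hq : 0 < q) (m : ℕ) (hm : 1 ≤ m) :
    ∏ i ∈ Finset.range m, (q ^ (2 * (i + 1)) - 1) < q ^ (m * (m + 1)) := by
  obtain ⟨k, rfl⟩ : ∃ k, m = k + 1 := ⟨m - 1, by omega⟩
  rw [Finset.prod_range_succ]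
  have h1 : q ^ (2 * (k + 1)) - 1 < q ^ (2 * (k + 1)) :=
    Nat.sub_lt (pow_pos hq _) Nat.one_pos
  calc (∏ i ∈ Finset.range k, (q ^ (2 * (i + 1)) - 1)) * (q ^ (2 * (k + 1)) - 1)
      ≤ q ^ (k * (k + 1)) * (q ^ (2 * (k + 1)) - 1) :=
        Nat.mul_le_mul_right _ (prod_sp_le q k)
    _ < q ^ (k * (k + 1)) * q ^ (2 * (k + 1)) :=
        Nat.mul_lt_mul_of_pos_left h1 (pow_pos hq _)
    _ = q ^ ((k + 1) * (k + 1 + 1)) := by rw [← pow_add]; congr 1; ring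

theorem ordPSp : PSpStmt := by
  intro p hp F _ _ _ m hm
  obtain ⟨f, hf, hq⟩ := card_eq_pow p F
  set q := Fintype.card F with hqdef
  have hq0 : 0 < q := Fintype.card_pos
  have hq2 : 2 ≤ q := by
    rw [hq]
    calc 2 ≤ p := hp.two_le
      _ = p ^ 1 := (pow_one p).symm
      _ ≤ p ^ f := Nat.pow_le_pow_right hp.pos (Nat.one_le_iff_ne_zero.mpr hf)
  have : Nonempty (Fin m) := ⟨⟨0, by omega⟩⟩
  have hSp := Cfsg.Agent.S0245.result (F := F) (q := q) rfl m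
  have hZ := Cfsg.Agent.H6.card_center_symplectic (l := Fin m) (F := F) (q := q) rfl
  have hquot := Subgroup.card_eq_card_quotient_mul_card_subgroup
    (Subgroup.center (Matrix.symplecticGroup (Fin m) F))
  have h : Nat.gcd 2 (q - 1) * Nat.card (PSp m F) =
      q ^ (m ^ 2) * ∏ i ∈ Finset.range m, (q ^ (2 * (i + 1)) - 1) := by
    rw [← hSp, hquot, hZ, mul_comm]
  have hc : Nat.Coprime q (Nat.gcd 2 (q - 1)) := by
    have h1 : Nat.Coprime q (q ^ 1 - 1) := coprime_pow_sub_one hq0.ne' one_ne_zero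
    rw [pow_one] at h1
    exact Nat.Coprime.coprime_dvd_right (Nat.gcd_dvd_right 2 (q - 1)) h1
  have hM : Nat.Coprime q (∏ i ∈ Finset.range m, (q ^ (2 * (i + 1)) - 1)) :=
    Nat.Coprime.prod_right (fun i _ => coprime_pow_sub_one hq0.ne' (by omega))
  have hlt := prod_sp_lt q hq0 m (by omega)
  have h1q : 1 ≤ q := hq0
  refine good_of_eq_q hp hq hf h hc hM ?_ ?_
  · calc ∏ i ∈ Finset.range m, (q ^ (2 * (i + 1)) - 1) < q ^ (m * (m + 1)) := hlt
      _ ≤ q ^ (2 * m ^ 2) := Nat.pow_le_pow_right h1q (by nlinarith)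
  · calc (∏ i ∈ Finset.range m, (q ^ (2 * (i + 1)) - 1)) ^ 3 < (q ^ (m * (m + 1))) ^ 3 :=
        Nat.pow_lt_pow_left hlt (by norm_num)
      _ = q ^ (3 * (m * (m + 1))) := by rw [← pow_mul]; congr 1; ring
      _ ≤ q ^ (5 * m ^ 2) := Nat.pow_le_pow_right h1q (by nlinarith)

example : PSpStmt := ordPSp

end Cfsg.Agent.H72.Ord
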