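import Mathlib
import Cfsg.Agent.H56.OrdDefs
import Cfsg.Agent.S0324
import Cfsg.Agent.H8.SzLie

/-!
# S2363 piece S2363-SZ (helper72): the order bounds for the Suzuki groups
-/

set_option autoImplicit false

namespace Cfsg.Agent.H72.Ord

open Cfsg Cfsg.Agent.H56.Ord

theorem sz_arith (R : ℕ) : ((R + 1) ^ 2 + 1) * R < (R + 1) ^ 3 := by
  calc ((R + 1) ^ 2 + 1) * R < ((R + 1) ^ 2 + 1) * R + (R ^ 2 + R + 1) :=
        Nat.lt_add_of_pos_right (by positivity)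
    _ = (R + 1) ^ 3 := by ring

theorem ordSz : SzStmt := by
  intro F _ _ m hm hF
  have hcard : Nat.card (Lie.Sz F (2 ^ (m + 1))) =
      (2 ^ (2 * m + 1)) ^ 2 * ((2 ^ (2 * m + 1)) ^ 2 + 1) * (2 ^ (2 * m + 1) - 1) := by
    rw [← Cfsg.Agent.S0324.result hm hF]
    exact Nat.card_congr (Cfsg.Agent.H8.lieSzEquiv hm hF).toEquiv.symm
  obtain ⟨R, hR⟩ : ∃ R, 2 ^ (2 * m + 1) = R + 1 :=
    ⟨2 ^ (2 * m + 1) - 1, (Nat.sub_add_cancel (Nat.one_le_two_pow)).symm⟩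
  have hReven : Even (R + 1) := by
    rw [← hR, pow_succ]
    exact even_two.mul_left _
  have hRodd : ¬ 2 ∣ R := by
    intro h2
    have : Odd (R + 1) := (even_iff_two_dvd.mpr h2).add_one
    exact (Nat.not_even_iff_odd.mpr this) hReven
  have h : 1 * Nat.card (Lie.Sz F (2 ^ (m + 1))) =
      2 ^ (2 * (2 * m + 1)) * (((R + 1) ^ 2 + 1) * R) := by
    rw [one_mul, hcard, hR, Nat.add_sub_cancel, mul_comm 2 (2 * m + 1), pow_mul, hR, mul_assoc]
  have hM : ¬ 2 ∣ ((R + 1) ^ 2 + 1) * R := by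
    intro hd
    rcases (Nat.Prime.dvd_mul Nat.prime_two).mp hd with h1 | h1
    · have h3 : Even ((R + 1) ^ 2) := (Nat.even_pow.mpr ⟨hReven, by norm_num⟩)
      have : Odd ((R + 1) ^ 2 + 1) := h3.add_one
      exact (Nat.not_even_iff_odd.mpr this) (even_iff_two_dvd.mpr h1)
    · exact hRodd h1
  have hlt := sz_arith R
  have hpow : (2 : ℕ) ^ (2 * (2 * m + 1)) = (R + 1) ^ 2 := by
    rw [mul_comm 2 (2 * m + 1), pow_mul, hR]
  have h1R : 1 ≤ R + 1 := Nat.le_add_left 1 R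
  refine good_of_eq Nat.prime_two h (by norm_num) hM ?_ ?_
  · calc ((R + 1) ^ 2 + 1) * R < (R + 1) ^ 3 := hlt
      _ ≤ (R + 1) ^ 4 := Nat.pow_le_pow_right h1R (by norm_num)
      _ = 2 ^ (2 * (2 * (2 * m + 1))) := by
          rw [show 2 * (2 * (2 * m + 1)) = 2 * (2 * m + 1) * 2 by ring, pow_mul, hpow, ← pow_mul]
  · calc (((R + 1) ^ 2 + 1) * R) ^ 3 < ((R + 1) ^ 3) ^ 3 :=
          Nat.pow_lt_pow_left hlt (by norm_num)
      _ = (R + 1) ^ 9 := by rw [← pow_mul]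
      _ ≤ (R + 1) ^ 10 := Nat.pow_le_pow_right h1R (by norm_num)
      _ = 2 ^ (5 * (2 * (2 * m + 1))) := by
          rw [show 5 * (2 * (2 * m + 1)) = 2 * (2 * m + 1) * 5 by ring, pow_mul, hpow, ← pow_mul]

example : SzStmt := ordSz

end Cfsg.Agent.H72.Ord
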