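import Cfsg.Agent.H42.SqDefs
import Cfsg.Agent.H72.Subn

/-!
# S2945 (team project SQ, lead helper42) piece SQ-COMM, interface half

`comm_of_core`: the statement `StComm` follows from the abstract core lemma on two automorphisms
of order 3 of an elementary abelian 2-group lying in a common 3-group (helper59's `aut_commute`,
taken here as the closed Prop `StAutCore`).
-/

set_option autoImplicit false
set_option linter.style.haveILetI false
set_option linter.unnecessarySimpa false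
open Cfsg
open scoped commutatorElement

universe u

namespace Cfsg.Agent.H72.Sq

open Cfsg.Agent.H42.Sq

/-- the abstract core (the statement of helper59's `Cfsg.Agent.H59.Sq.aut_commute`) -/
def StAutCore : Prop := ∀ {E : Type u} [CommGroup E] [Finite E], (∀ e : E, e * e = 1) →
  ∀ P : Subgroup (MulAut E), IsPGroup 3 ↥P → ∀ x y : MulAut E, x ∈ P → y ∈ P →
  x ^ 3 = 1 → y ^ 3 = 1 →
  Nat.card ↥(Set.range fun v : E => v * x v) = 4 →
  Nat.card ↥(Set.range fun v : E => v * y v) = 4 → x * y = y * x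

section
variable {G : Type u} [Group G]

/-- conjugation by an element of the normalizer, as an automorphism of `V` -/
def cj (V : Subgroup G) (h : ↥(Subgroup.normalizer (V : Set G))) : MulAut ↥V where
  toFun v := ⟨(h : G) * v * (h : G)⁻¹, (Subgroup.mem_normalizer_iff.mp h.2 v).mp v.2⟩
  invFun v := ⟨(h : G)⁻¹ * v * (h : G), by
    have h1 := (Subgroup.mem_normalizer_iff.mp h.2 ((h : G)⁻¹ * v * (h : G))).mpr
      (by simpa [mul_assoc] using v.2)
    exact h1⟩
  left_inv v := by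
    apply Subtype.ext
    simp [mul_assoc]
  right_inv v := by
    apply Subtype.ext
    simp [mul_assoc]
  map_mul' v w := by
    apply Subtype.ext
    simp [mul_assoc]

/-- the conjugation action of the normalizer of `V` on `V` -/
def cjHom (V : Subgroup G) : ↥(Subgroup.normalizer (V : Set G)) →* MulAut ↥V :=
  MonoidHom.mk' (cj V) (by
    intro a b
    apply MulEquiv.ext
    intro v
    apply Subtype.ext
    simp [cj, mul_assoc])

theorem cjHom_apply (V : Subgroup G) (h : ↥(Subgroup.normalizer (V : Set G))) (v : ↥V) :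
    ((cjHom V h v : ↥V) : G) = (h : G) * v * (h : G)⁻¹ := rfl

end


/-- the core, restated for a `Group` with commutativity as a hypothesis (so that no local
`CommGroup` instance is needed downstream) -/
theorem core' (hcore : StAutCore.{u}) {E : Type u} [Group E] [Finite E]
    (hc : ∀ a b : E, a * b = b * a) (hE : ∀ e : E, e * e = 1)
    (P : Subgroup (MulAut E)) (hP : IsPGroup 3 ↥P) (x y : MulAut E) (hx : x ∈ P) (hy : y ∈ P)
    (hx3 : x ^ 3 = 1) (hy3 : y ^ 3 = 1)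
    (hWx : Nat.card ↥(Set.range fun v : E => v * x v) = 4)
    (hWy : Nat.card ↥(Set.range fun v : E => v * y v) = 4) : x * y = y * x := by
  letI : CommGroup E := { ‹Group E› with mul_comm := hc }
  exact hcore hE P hP x y hx hy hx3 hy3 hWx hWy

/-- the automorphism-level statement: a subnormal subgroup `K` of `X` acting on `E` through a group
of order 3 generated by `ρ k₀` with `|[E, ρ k₀]| = 4` commutes, on `E`, with its conjugates. -/
theorem autLevel (hcore : StAutCore.{u}) {E : Type u} [Group E] [Finite E]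
    (hc : ∀ a b : E, a * b = b * a) (hE : ∀ e : E, e * e = 1)
    {X : Type u} [Group X] [Finite X] (ρ : X →* MulAut E) (K : Subgroup X) (hsn : K.IsSubnormal)
    (k₀ : X) (hk₀ : k₀ ∈ K) (h3 : (ρ k₀) ^ 3 = 1)
    (hpow : ∀ k ∈ K, ∃ i : ℕ, ρ k = (ρ k₀) ^ i)
    (hW : Nat.card ↥(Set.range fun v : E => v * ρ k₀ v) = 4)
    (a k₁ k₂ : X) (hk₁ : k₁ ∈ K) (hk₂ : k₂ ∈ K) :
    ρ ⁅k₁, a * k₂ * a⁻¹⁆ = 1 := by
  haveI : Fact (Nat.Prime 3) := ⟨by norm_num⟩
  haveI : Finite ↥ρ.range := Finite.of_surjective ρ.rangeRestrict ρ.rangeRestrict_surjective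
  have hsn' : (K.map ρ.rangeRestrict).IsSubnormal := hsn.map ρ.rangeRestrict_surjective
  have hp : IsPGroup 3 ↥(K.map ρ.rangeRestrict) := by
    rintro ⟨g, hg⟩
    obtain ⟨k, hk, rfl⟩ := Subgroup.mem_map.mp hg
    refine ⟨1, ?_⟩
    apply Subtype.ext
    apply Subtype.ext
    obtain ⟨i, hi⟩ := hpow k hk
    show (ρ k) ^ (3 ^ 1) = 1
    rw [hi, pow_one, ← pow_mul, mul_comm, pow_mul, h3, one_pow]
  have hle : K.map ρ.rangeRestrict ≤ Cfsg.pCore 3 ↥ρ.range :=
    Cfsg.Agent.H72.le_pCore_of_forall_le_sylow _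
      (fun Q => Cfsg.Agent.H72.le_sylow_of_isSubnormal 3 hsn' hp Q)
  have hP : IsPGroup 3 ↥((Cfsg.pCore 3 ↥ρ.range).map ρ.range.subtype) :=
    (Cfsg.Agent.H72.pCore_isPGroup 3 ↥ρ.range).map ρ.range.subtype
  have hξP : ρ k₀ ∈ (Cfsg.pCore 3 ↥ρ.range).map ρ.range.subtype :=
    ⟨ρ.rangeRestrict k₀, hle (Subgroup.mem_map_of_mem _ hk₀), rfl⟩
  have hηP : ρ a * ρ k₀ * (ρ a)⁻¹ ∈ (Cfsg.pCore 3 ↥ρ.range).map ρ.range.subtype := by
    refine ⟨ρ.rangeRestrict a * ρ.rangeRestrict k₀ * (ρ.rangeRestrict a)⁻¹, ?_, rfl⟩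
    exact (Cfsg.Agent.H72.pCore_normal 3 ↥ρ.range).conj_mem _
      (hle (Subgroup.mem_map_of_mem _ hk₀)) _
  have hη3 : (ρ a * ρ k₀ * (ρ a)⁻¹) ^ 3 = 1 := by
    rw [conj_pow, h3, mul_one, mul_inv_cancel]
  have hWη : Nat.card ↥(Set.range fun v : E => v * (ρ a * ρ k₀ * (ρ a)⁻¹) v) = 4 := by
    have h1 : (Set.range fun v : E => v * (ρ a * ρ k₀ * (ρ a)⁻¹) v)
        = (ρ a) '' (Set.range fun v : E => v * ρ k₀ v) := by
      ext w
      constructor
      · rintro ⟨v, rfl⟩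
        refine ⟨(ρ a)⁻¹ v * ρ k₀ ((ρ a)⁻¹ v), ⟨(ρ a)⁻¹ v, rfl⟩, ?_⟩
        simp [MulAut.mul_apply]
      · rintro ⟨_, ⟨u, rfl⟩, rfl⟩
        refine ⟨ρ a u, ?_⟩
        simp [MulAut.mul_apply]
    rw [h1, Nat.card_image_of_injective (ρ a).injective]
    exact hW
  have hcomm : ρ k₀ * (ρ a * ρ k₀ * (ρ a)⁻¹) = (ρ a * ρ k₀ * (ρ a)⁻¹) * ρ k₀ :=
    core' hcore hc hE _ hP _ _ hξP hηP h3 hη3 hW hWη
  obtain ⟨i, hi⟩ := hpow k₁ hk₁
  obtain ⟨j, hj⟩ := hpow k₂ hk₂
  have h2 : ρ (a * k₂ * a⁻¹) = (ρ a * ρ k₀ * (ρ a)⁻¹) ^ j := by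
    rw [map_mul, map_mul, map_inv, hj, conj_pow]
  rw [map_commutatorElement, hi, h2]
  exact commutatorElement_eq_one_iff_commute.mpr (Commute.pow_pow hcomm i j)


/-- SQ-COMM modulo the abstract core. -/
theorem comm_of_core (hcore : StAutCore.{u}) : StComm.{u} := by
  intro G _ _ H V K O hV hHV hKH hsn hOK hOC hO3 hW a ha
  haveI : Fact (Nat.Prime 3) := ⟨by norm_num⟩
  have hc : ∀ x y : ↥V, x * y = y * x := fun x y => hV.1.is_comm.comm x y
  have hE : ∀ e : ↥V, e * e = 1 := by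
    intro e
    apply Subtype.ext
    have h1 := hV.2 e e.2
    simpa [pow_two] using h1
  -- the action
  have hρa : ∀ (h : ↥H) (v : ↥V),
      ((((cjHom V).comp (Subgroup.inclusion hHV)) h v : ↥V) : G) = (h : G) * v * (h : G)⁻¹ :=
    fun h v => rfl
  have hker : ∀ h : ↥H, ((cjHom V).comp (Subgroup.inclusion hHV)) h = 1 ↔
      (h : G) ∈ Subgroup.centralizer (V : Set G) := by
    intro h
    rw [Subgroup.mem_centralizer_iff]
    constructor
    · intro h1 v hv
      have h2 := hρa h ⟨v, hv⟩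
      rw [h1] at h2
      simp only [MulAut.one_apply] at h2
      calc v * (h : G) = ((h : G) * v * (h : G)⁻¹) * h := by rw [← h2]
        _ = h * v := by group
    · intro h1
      apply MulEquiv.ext
      intro v
      apply Subtype.ext
      rw [hρa]
      have h2 := h1 v v.2
      simp only [MulAut.one_apply]
      rw [← h2]
      group
  generalize hρ : (cjHom V).comp (Subgroup.inclusion hHV) = ρ at hρa hker
  -- `K` is not contained in `C(V)`, so `C_K(V)` has index 3 in `K`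
  have hKC : ¬ K ≤ Subgroup.centralizer (V : Set G) := by
    intro hle
    have h1 : ⁅V, K⁆ = ⊥ := by
      rw [Subgroup.commutator_eq_bot_iff_le_centralizer]
      exact Subgroup.le_centralizer_iff.mp hle
    rw [h1] at hW
    simp at hW
  have hCK3 : (Subgroup.centralizer (V : Set G)).relIndex K = 3 := by
    have h1 : (Subgroup.centralizer (V : Set G)).relIndex K ∣ O.relIndex K :=
      Subgroup.relIndex_dvd_of_le_left K hOC
    rw [hO3] at h1
    rcases (Nat.dvd_prime (by norm_num : Nat.Prime 3)).mp h1 with h | h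
    · exact absurd (Subgroup.relIndex_eq_one.mp h) hKC
    · exact h
  have hkerK : (ρ.comp (Subgroup.inclusion hKH)).ker
      = (Subgroup.centralizer (V : Set G)).subgroupOf K := by
    ext k
    rw [MonoidHom.mem_ker, Subgroup.mem_subgroupOf]
    exact hker (Subgroup.inclusion hKH k)
  have hidx : (ρ.comp (Subgroup.inclusion hKH)).ker.index = 3 := by rw [hkerK]; exact hCK3
  have hcube : ∀ k : ↥K, (ρ (Subgroup.inclusion hKH k)) ^ 3 = 1 := by
    intro k
    have h1 : k ^ (ρ.comp (Subgroup.inclusion hKH)).ker.index ∈ (ρ.comp (Subgroup.inclusion hKH)).ker :=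
      Subgroup.pow_index_mem _ k
    rw [hidx, MonoidHom.mem_ker, map_pow] at h1
    exact h1
  have hcardR : Nat.card ↥(ρ.comp (Subgroup.inclusion hKH)).range = 3 := by
    rw [← Subgroup.index_ker, hidx]
  obtain ⟨k₀, hk₀K, hk₀C⟩ := SetLike.not_le_iff_exists.mp hKC
  have hξ1 : ρ ⟨k₀, hKH hk₀K⟩ ≠ 1 := by
    intro h1
    exact hk₀C ((hker _).mp h1)
  have hξ3 : (ρ ⟨k₀, hKH hk₀K⟩) ^ 3 = 1 := hcube ⟨k₀, hk₀K⟩
  have hpow : ∀ k : ↥K, ∃ i : ℕ, ρ (Subgroup.inclusion hKH k) = (ρ ⟨k₀, hKH hk₀K⟩) ^ i := by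
    intro k
    haveI : Finite ↥(ρ.comp (Subgroup.inclusion hKH)).range :=
      Nat.finite_of_card_ne_zero (by rw [hcardR]; norm_num)
    have hz : Subgroup.zpowers
        (⟨ρ ⟨k₀, hKH hk₀K⟩, ⟨⟨k₀, hk₀K⟩, rfl⟩⟩ : ↥(ρ.comp (Subgroup.inclusion hKH)).range) = ⊤ :=
      zpowers_eq_top_of_prime_card hcardR (by
        intro h1; exact hξ1 (congrArg Subtype.val h1))
    have hm : (⟨ρ (Subgroup.inclusion hKH k), ⟨k, rfl⟩⟩ : ↥(ρ.comp (Subgroup.inclusion hKH)).range)
        ∈ Subgroup.zpowers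
        (⟨ρ ⟨k₀, hKH hk₀K⟩, ⟨⟨k₀, hk₀K⟩, rfl⟩⟩ : ↥(ρ.comp (Subgroup.inclusion hKH)).range) := by
      rw [hz]; trivial
    rw [← mem_powers_iff_mem_zpowers] at hm
    obtain ⟨i, hi⟩ := hm
    exact ⟨i, (congrArg Subtype.val hi).symm⟩
  have hcases : ∀ i : ℕ, (ρ ⟨k₀, hKH hk₀K⟩) ^ i = 1 ∨ (ρ ⟨k₀, hKH hk₀K⟩) ^ i = ρ ⟨k₀, hKH hk₀K⟩
      ∨ (ρ ⟨k₀, hKH hk₀K⟩) ^ i = (ρ ⟨k₀, hKH hk₀K⟩) ^ 2 := by
    intro i
    rw [← Nat.mod_add_div i 3, pow_add, pow_mul, hξ3, one_pow, mul_one]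
    have h1 := Nat.mod_lt i (by norm_num : 0 < 3)
    interval_cases (i % 3) <;> simp
  generalize hξ : ρ ⟨k₀, hKH hk₀K⟩ = ξ at hξ1 hξ3 hpow hcases
  -- the commutator `[V, ξ]` is `[V, K]`
  have hv2 : ∀ v : ↥V, (v : G)⁻¹ = v := by
    intro v
    have h2 : (v : G) * v = 1 := congrArg Subtype.val (hE v)
    exact inv_eq_of_mul_eq_one_left h2
  have hWξ : Nat.card ↥(Set.range fun v : ↥V => v * ξ v) = 4 := by
    have himg : Subtype.val '' (Set.range fun v : ↥V => v * ξ v)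
        = ((⁅V, K⁆ : Subgroup G) : Set G) := by
      apply Set.Subset.antisymm
      · rintro _ ⟨_, ⟨v, rfl⟩, rfl⟩
        have h1 : ((v * ξ v : ↥V) : G) = ⁅(v : G), k₀⁆ := by
          rw [commutatorElement_def, ← hξ, Subgroup.coe_mul, hρa]
          conv_rhs => rw [mul_assoc, mul_assoc, hv2 v, ← mul_assoc k₀]
        rw [h1]
        exact Subgroup.commutator_mem_commutator v.2 hk₀K
      · have hD : ⁅V, K⁆ ≤ (MonoidHom.mk' (fun v : ↥V => v * ξ v) (by
            intro v w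
            rw [map_mul, mul_assoc, mul_assoc, ← mul_assoc w, hc w (ξ v), mul_assoc])
            : ↥V →* ↥V).range.map V.subtype := by
          rw [Subgroup.commutator_le]
          intro v hv k hk
          obtain ⟨i, hi⟩ := hpow ⟨k, hk⟩
          have h1 : ⁅v, k⁆ = ((⟨v, hv⟩ * ρ (Subgroup.inclusion hKH ⟨k, hk⟩) ⟨v, hv⟩ : ↥V) : G) := by
            rw [commutatorElement_def, Subgroup.coe_mul, hρa]
            have h2 := hv2 ⟨v, hv⟩
            simp only at h2
            rw [h2]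
            simp [mul_assoc]
          rw [h1, hi]
          rcases hcases i with h | h | h
          · rw [h]
            refine ⟨1, ⟨1, ?_⟩, ?_⟩
            · simp
            · simp only [MulAut.one_apply]
              rw [hE]; simp
          · rw [h]
            exact ⟨⟨v, hv⟩ * ξ ⟨v, hv⟩, ⟨⟨v, hv⟩, rfl⟩, rfl⟩
          · rw [h]
            refine ⟨(ξ ^ 2) ⟨v, hv⟩ * ξ ((ξ ^ 2) ⟨v, hv⟩), ⟨(ξ ^ 2) ⟨v, hv⟩, rfl⟩, ?_⟩
            have h3 : ξ ((ξ ^ 2) ⟨v, hv⟩) = ⟨v, hv⟩ := by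
              have h4 : ξ ((ξ ^ 2) ⟨v, hv⟩) = (ξ ^ 3) ⟨v, hv⟩ := by
                rw [pow_succ' ξ 2, MulAut.mul_apply]
              rw [h4, hξ3, MulAut.one_apply]
            rw [h3, hc]
            rfl
        intro x hx
        obtain ⟨_, ⟨v, rfl⟩, rfl⟩ := hD hx
        exact ⟨_, ⟨v, rfl⟩, rfl⟩
    rw [← Nat.card_image_of_injective Subtype.val_injective, himg]
    exact hW
  -- conclusion
  rw [Subgroup.commutator_le]
  intro k₁ hk₁ k₂ hk₂
  obtain ⟨k, hk, rfl⟩ := Subgroup.mem_map.mp hk₂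
  have hfin := autLevel hcore hc hE ρ (K.subgroupOf H) hsn ⟨k₀, hKH hk₀K⟩
    (Subgroup.mem_subgroupOf.mpr hk₀K) (by rw [hξ]; exact hξ3)
    (by
      intro x hx
      rw [hξ]
      exact hpow ⟨(x : G), Subgroup.mem_subgroupOf.mp hx⟩)
    (by rw [hξ]; exact hWξ) ⟨a, ha⟩ ⟨k₁, hKH hk₁⟩ ⟨k, hKH hk⟩
    (Subgroup.mem_subgroupOf.mpr hk₁) (Subgroup.mem_subgroupOf.mpr hk)
  exact (hker _).mp hfin

end Cfsg.Agent.H72.Sq
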