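import Cfsg.Agent.H42.SqDefs
import Cfsg.Agent.H63.SnIfSyl

/-!
# S2945 (team project SQ, lead helper42) piece SQ-EA: the elementary abelian 2-subgroups of `L`
are no larger than the largest ones of a Sylow 2-subgroup `T` of `L`
-/

set_option autoImplicit false
open Cfsg

universe u

namespace Cfsg.Agent.H72.Sq

open Cfsg.Agent.H42.Sq

/-- SQ-EA. -/
theorem ea : StEA.{u} := by
  intro G _ _ T L hTL A hA B hBL hB
  obtain ⟨hle, hT2, hodd⟩ := hTL
  have hodd' : Odd (T.subgroupOf L).index := hodd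
  have hmax := Cfsg.Agent.H63.Sn.maxEA_inclusion T L hle hT2 hodd' A hA
  have hBL' : IsElementaryAbelian 2 (B.subgroupOf L) := by
    refine ⟨?_, ?_⟩
    · haveI := hB.1
      infer_instance
    · intro a ha
      apply Subtype.ext
      have h := hB.2 (a : G) ha
      simpa using h
  have h1 := hmax.2 (B.subgroupOf L) hBL'
  have hc1 : Nat.card ↥(B.subgroupOf L) = Nat.card ↥B :=
    Nat.card_congr (Subgroup.subgroupOfEquivOfLe hBL).toEquiv
  have hc2 : Nat.card ↥(A.map (Subgroup.inclusion hle)) = Nat.card ↥A :=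
    (Nat.card_congr (A.equivMapOfInjective _ (Subgroup.inclusion_injective hle)).toEquiv).symm
  rw [← hc1, ← hc2]
  exact h1

end Cfsg.Agent.H72.Sq

example : Cfsg.Agent.H42.Sq.StEA.{u} := Cfsg.Agent.H72.Sq.ea
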