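import Mathlib
import Cfsg.Agent.Lib.Helper96.TWDefs
import Cfsg.Agent.H95.Quad

/-!
# S5707 piece S5707-G1ISO (helper72): the Clifford element `γ` and the local unipotent `b`
are isometries of the standard model.
-/

set_option autoImplicit false

namespace Cfsg.Agent.H72.TW

open Cfsg Cfsg.Geo Matrix Cfsg.Agent.Lib.Helper96.TW
open scoped MatrixGroups

universe u

section basics

variable {F : Type u} [Field F] {k t : ℕ}

theorem loc_transpose (j : Fin t) (A : Matrix (Fin k) (Fin k) F) :
    (loc j A : Matrix (Idx k t) (Idx k t) F)ᵀ = loc j Aᵀ := by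
  ext x y
  simp only [Matrix.transpose_apply, loc]
  by_cases h : ∀ i, i ≠ j → x i = y i
  · rw [if_pos h, if_pos (fun i hi => (h i hi).symm)]
  · rw [if_neg h, if_neg (fun h' => h (fun i hi => (h' i hi).symm))]

theorem loc_zero (j : Fin t) :
    (loc j (0 : Matrix (Fin k) (Fin k) F) : Matrix (Idx k t) (Idx k t) F) = 0 := by
  ext x y
  simp [loc]

/-- the big exchange matrix -/
theorem pureM_Jm (x y : Idx k t) :
    pureM (fun _ : Fin t => Jm F k) x y = if y = revI x then 1 else 0 := by
  unfold pureM Jm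
  rw [Fintype.prod_boole]
  congr 1
  apply propext
  constructor
  · intro h
    funext i
    exact h i
  · intro h i
    rw [h]
    rfl

theorem mulVec_single_apply (M : Matrix (Idx k t) (Idx k t) F) (a x : Idx k t) :
    (M *ᵥ Pi.single a 1) x = M x a := by
  rw [Matrix.mulVec_single_one]
  rfl

theorem polar_of_mat {Q : (Idx k t → F) → F} {c : F} (hS : SM k t Q c)
    (M : Matrix (Idx k t) (Idx k t) F)
    (hM : Mᵀ * pureM (fun _ : Fin t => Jm F k) * M = pureM (fun _ : Fin t => Jm F k))
    (a b : Idx k t) :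
    QuadraticMap.polar Q (M *ᵥ Pi.single a 1) (M *ᵥ Pi.single b 1) =
      if b = revI a then c else 0 := by
  rw [hS.polar]
  have h3 : (Mᵀ * pureM (fun _ : Fin t => Jm F k) * M) a b = ∑ x, M x a * M (revI x) b := by
    rw [Matrix.mul_assoc, Matrix.mul_apply]
    refine Finset.sum_congr rfl (fun x _ => ?_)
    rw [Matrix.transpose_apply, Matrix.mul_apply]
    congr 1
    simp only [pureM_Jm, ite_mul, one_mul, zero_mul]
    rw [Finset.sum_ite_eq']
    simp
  rw [hM, pureM_Jm] at h3
  simp only [mulVec_single_apply]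
  rw [← h3]
  split_ifs <;> simp

theorem q_single_add {Q : (Idx k t → F) → F} {c : F} (hS : SM k t Q c) (x y : Idx k t)
    (hxy : y ≠ revI x) : Q (Pi.single x 1 + Pi.single y 1) = 0 := by
  rw [Cfsg.Agent.H95.q_add Q, hS.basis, hS.basis, hS.polar]
  have : ∑ a, (Pi.single x 1 : Idx k t → F) a * (Pi.single y 1 : Idx k t → F) (revI a) = 0 := by
    refine Finset.sum_eq_zero (fun a _ => ?_)
    by_cases ha : a = x
    · subst ha
      rw [Pi.single_eq_of_ne (Ne.symm hxy), mul_zero]
    · rw [Pi.single_eq_of_ne ha, zero_mul]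
  rw [this]
  simp

theorem sh_sh (hk : k = 2 ∨ k = 4) (p : Fin k) : sh (sh p) = p := by
  rcases hk with rfl | rfl
  · revert p; decide
  · revert p; decide

theorem rev_ne (hk : k = 2 ∨ k = 4) (p : Fin k) : p.rev ≠ p := by
  rcases hk with rfl | rfl
  · revert p; decide
  · revert p; decide

theorem rev_sh_ne (p : Fin 4) : (sh p).rev ≠ p := by
  revert p; decide

theorem loc_Xm_single (hk : k = 2 ∨ k = 4) (i : Fin t) (a : Idx k t) :
    (loc i (Xm F k) : Matrix (Idx k t) (Idx k t) F) *ᵥ Pi.single a 1 =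
      Pi.single (shI i a) 1 := by
  funext x
  rw [mulVec_single_apply]
  unfold loc Xm
  by_cases hx : x = shI i a
  · subst hx
    rw [Pi.single_eq_same, if_pos, if_pos]
    · unfold shI
      rw [Function.update_self, sh_sh hk]
    · intro l hl
      unfold shI
      rw [Function.update_of_ne hl]
  · rw [Pi.single_eq_of_ne hx]
    by_cases h1 : ∀ l, l ≠ i → x l = a l
    · rw [if_pos h1, if_neg]
      intro h2
      apply hx
      funext l
      unfold shI
      by_cases hl : l = i
      · subst hl
        rw [Function.update_self, h2, sh_sh hk]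
      · rw [Function.update_of_ne hl, h1 l hl]
    · rw [if_neg h1]

theorem loc_Nm_single (hk : k = 2 ∨ k = 4) (j : Fin t) (a : Idx k t) :
    (loc j (Nm F k) : Matrix (Idx k t) (Idx k t) F) *ᵥ Pi.single a 1 = 0 ∨
    ∃ a'' : Idx k t, (∀ l, l ≠ j → a'' l = a l) ∧
      (loc j (Nm F k) : Matrix (Idx k t) (Idx k t) F) *ᵥ Pi.single a 1 = Pi.single a'' 1 := by
  by_cases h : k / 2 ≤ (a j).val
  · right
    have hlt : (a j).val - k / 2 < k := by have := (a j).isLt; omega
    refine ⟨Function.update a j ⟨(a j).val - k / 2, hlt⟩, fun l hl => Function.update_of_ne hl _ _,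
      ?_⟩
    funext x
    rw [mulVec_single_apply]
    unfold loc Nm
    by_cases hx : x = Function.update a j ⟨(a j).val - k / 2, hlt⟩
    · subst hx
      rw [Pi.single_eq_same, if_pos, if_pos]
      · rw [Function.update_self]
        have := (a j).isLt
        simp only
        rcases hk with rfl | rfl <;> omega
      · intro l hl
        rw [Function.update_of_ne hl]
    · rw [Pi.single_eq_of_ne hx]
      by_cases h1 : ∀ l, l ≠ j → x l = a l
      · rw [if_pos h1, if_neg]
        intro h2
        apply hx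
        funext l
        by_cases hl : l = j
        · subst hl
          rw [Function.update_self]
          apply Fin.ext
          simp only
          omega
        · rw [Function.update_of_ne hl, h1 l hl]
      · rw [if_neg h1]
  · left
    funext x
    rw [mulVec_single_apply]
    unfold loc Nm
    by_cases h1 : ∀ l, l ≠ j → x l = a l
    · rw [if_pos h1, if_neg]
      · rfl
      · intro h2
        omega
    · rw [if_neg h1]
      rfl

theorem exists_third (ht : 3 ≤ t) (i j : Fin t) : ∃ l : Fin t, l ≠ i ∧ l ≠ j := by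
  classical
  have hcard : ({i, j} : Finset (Fin t)).card < (Finset.univ : Finset (Fin t)).card := by
    rw [Finset.card_univ, Fintype.card_fin]
    exact lt_of_le_of_lt (Finset.card_le_two) (by omega)
  obtain ⟨l, -, hl⟩ := Finset.exists_mem_notMem_of_card_lt_card hcard
  refine ⟨l, ?_, ?_⟩
  · rintro rfl; exact hl (by simp)
  · rintro rfl; exact hl (by simp)

/-- small matrix identities -/
theorem Xm_transpose (hk : k = 2 ∨ k = 4) : (Xm F k)ᵀ = Xm F k := by
  ext p q
  simp only [Matrix.transpose_apply, Xm]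
  by_cases h : q = sh p
  · rw [if_pos h, if_pos (by rw [h, sh_sh hk])]
  · rw [if_neg h, if_neg]
    intro h'
    apply h
    rw [h', sh_sh hk]

theorem Jm_mul_apply (A : Matrix (Fin k) (Fin k) F) (p q : Fin k) :
    (Jm F k * A) p q = A p.rev q := by
  rw [Matrix.mul_apply]
  unfold Jm
  simp only [ite_mul, one_mul, zero_mul]
  rw [Finset.sum_ite_eq']
  simp

theorem mul_Jm_apply (A : Matrix (Fin k) (Fin k) F) (p q : Fin k) :
    (A * Jm F k) p q = A p q.rev := by
  rw [Matrix.mul_apply]
  unfold Jm
  simp only [mul_ite, mul_one, mul_zero]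
  have : ∀ r : Fin k, (q = r.rev) = (r = q.rev) := by
    intro r
    apply propext
    constructor
    · intro h; rw [h, Fin.rev_rev]
    · intro h; rw [h, Fin.rev_rev]
  simp only [this]
  rw [Finset.sum_ite_eq']
  simp

theorem sh_rev (hk : k = 2 ∨ k = 4) (p : Fin k) : sh p.rev = (sh p).rev := by
  rcases hk with rfl | rfl
  · revert p; decide
  · revert p; decide

theorem Jm_Xm (hk : k = 2 ∨ k = 4) : Jm F k * Xm F k = Xm F k * Jm F k := by
  ext p q
  rw [Jm_mul_apply, mul_Jm_apply]
  unfold Xm
  by_cases h : q = sh p.rev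
  · rw [if_pos h, if_pos]
    rw [h, sh_rev hk, Fin.rev_rev]
  · rw [if_neg h, if_neg]
    intro h'
    apply h
    rw [sh_rev hk, ← h', Fin.rev_rev]

theorem Jm_Nm (hk : k = 2 ∨ k = 4) : Jm F k * Nm F k = (Nm F k)ᵀ * Jm F k := by
  ext p q
  rw [Jm_mul_apply, mul_Jm_apply, Matrix.transpose_apply]
  unfold Nm
  have hp := p.isLt
  have hq := q.isLt
  have e : (p.rev.val < k / 2 ∧ q.val = p.rev.val + k / 2) ↔
      (q.rev.val < k / 2 ∧ p.val = q.rev.val + k / 2) := by
    rw [Fin.val_rev, Fin.val_rev]
    rcases hk with rfl | rfl <;> omega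
  exact if_congr e rfl rfl

end basics

theorem sq_one_of {F : Type u} [Field F] {k t : ℕ} (hAlg : StAlg.{u}) (h2 : (2 : F) = 0)
    (i j : Fin t) (hij : i ≠ j) (A B : Matrix (Fin k) (Fin k) F) (hA : A * A = 1)
    (hB : B * B = 0) :
    (loc i A + loc j B : Matrix (Idx k t) (Idx k t) F) * (loc i A + loc j B) = 1 := by
  obtain ⟨h1, hmul, -, -, hcomm, -⟩ := hAlg F k t
  have hchar : ∀ M : Matrix (Idx k t) (Idx k t) F, M + M = 0 := fun M => by
    rw [← two_smul F M, h2, zero_smul]
  rw [mul_add, add_mul, add_mul, ← hmul, ← hmul, hA, hB, h1, loc_zero, add_zero,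
    hcomm j i B A (Ne.symm hij), add_assoc, hchar, add_zero]

theorem g1Iso : StG1Iso.{u} := by
  intro hAlg hCliff hIso F _ k t Q c hC hS i j hij
  have h2 : (2 : F) = 0 := hS.two
  have hk : k = 2 ∨ k = 4 := by
    rcases hC with ⟨h, -⟩ | ⟨h, -⟩
    · exact Or.inl h
    · exact Or.inr h
  obtain ⟨-, -, -, -, -, -, -, hXX, hNN, hUU⟩ := hCliff F k h2 hk
  obtain ⟨h1, hmul, hadd, -, hcomm, hpure, -⟩ := hAlg F k t
  -- the exchange matrix
  set JJ : Matrix (Idx k t) (Idx k t) F := pureM (fun _ : Fin t => Jm F k) with hJJ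
  -- γ
  have hγγ := sq_one_of hAlg h2 i j hij (Xm F k) (Nm F k) hXX hNN
  have hNtNt : (Nm F k)ᵀ * (Nm F k)ᵀ = 0 := by
    rw [← Matrix.transpose_mul, hNN, Matrix.transpose_zero]
  have hγγ' := sq_one_of hAlg h2 i j hij (Xm F k) (Nm F k)ᵀ hXX hNtNt
  have hbb : (loc i (Um F k) : Matrix (Idx k t) (Idx k t) F) * loc i (Um F k) = 1 := by
    rw [← hmul, hUU, h1]
  refine ⟨⟨loc i (Xm F k) + loc j (Nm F k), loc i (Xm F k) + loc j (Nm F k), hγγ, hγγ⟩,
    ⟨loc i (Um F k), loc i (Um F k), hbb, hbb⟩, rfl, rfl, ?_, ?_⟩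
  · -- γ is an isometry
    refine hIso F k t Q c hS _ ?_ ?_
    · intro a b
      refine polar_of_mat hS _ ?_ a b
      show (loc i (Xm F k) + loc j (Nm F k) : Matrix (Idx k t) (Idx k t) F)ᵀ * JJ *
        (loc i (Xm F k) + loc j (Nm F k)) = JJ
      have e1 : JJ * (loc i (Xm F k) + loc j (Nm F k)) =
          (loc i (Xm F k) + loc j (Nm F k)ᵀ) * JJ := by
        rw [mul_add, add_mul, hJJ, hpure (fun _ => Jm F k) i (Xm F k) (Xm F k) (Jm_Xm hk),
          hpure (fun _ => Jm F k) j (Nm F k) (Nm F k)ᵀ (Jm_Nm hk)]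
      rw [Matrix.mul_assoc, e1, Matrix.transpose_add, loc_transpose, loc_transpose,
        Xm_transpose hk, ← Matrix.mul_assoc, hγγ', Matrix.one_mul]
    · intro a
      show Q ((loc i (Xm F k) + loc j (Nm F k) : Matrix (Idx k t) (Idx k t) F) *ᵥ
        Pi.single a 1) = 0
      rw [Matrix.add_mulVec, loc_Xm_single hk]
      rcases loc_Nm_single (F := F) hk j a with h0 | ⟨a'', ha'', h0⟩
      · rw [h0, add_zero, hS.basis]
      · rw [h0]
        refine q_single_add hS _ _ ?_
        intro heq
        rcases hC with ⟨rfl, ht⟩ | ⟨rfl, ht⟩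
        · obtain ⟨l, hli, hlj⟩ := exists_third (by omega) i j
          have := congrFun heq l
          rw [ha'' l hlj] at this
          unfold revI shI at this
          rw [Function.update_of_ne hli] at this
          exact rev_ne (Or.inl rfl) (a l) this.symm
        · have := congrFun heq i
          rw [ha'' i hij] at this
          unfold revI shI at this
          rw [Function.update_self] at this
          exact rev_sh_ne (a i) this.symm
  · -- b is an isometry
    refine hIso F k t Q c hS _ ?_ ?_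
    · intro a b
      refine polar_of_mat hS _ ?_ a b
      show (loc i (Um F k) : Matrix (Idx k t) (Idx k t) F)ᵀ * JJ * loc i (Um F k) = JJ
      have hJU : Jm F k * Um F k = (Um F k)ᵀ * Jm F k := by
        unfold Um
        rw [mul_add, Matrix.transpose_add, add_mul, Jm_Nm hk, Matrix.transpose_one,
          Matrix.mul_one, Matrix.one_mul]
      have e1 : JJ * loc i (Um F k) = loc i (Um F k)ᵀ * JJ := by
        rw [hJJ, hpure (fun _ => Jm F k) i (Um F k) (Um F k)ᵀ hJU]
      rw [Matrix.mul_assoc, e1, loc_transpose, ← Matrix.mul_assoc, ← hmul,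
        ← Matrix.transpose_mul, hUU, Matrix.transpose_one, h1, Matrix.one_mul]
    · intro a
      show Q ((loc i (Um F k) : Matrix (Idx k t) (Idx k t) F) *ᵥ Pi.single a 1) = 0
      have hU : (loc i (Um F k) : Matrix (Idx k t) (Idx k t) F) = 1 + loc i (Nm F k) := by
        unfold Um
        rw [hadd, h1]
      rw [hU, Matrix.add_mulVec, Matrix.one_mulVec]
      rcases loc_Nm_single (F := F) hk i a with h0 | ⟨a'', ha'', h0⟩
      · rw [h0, add_zero, hS.basis]
      · rw [h0]
        refine q_single_add hS _ _ ?_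
        intro heq
        have ht2 : 2 ≤ t := by
          rcases hC with ⟨-, ht⟩ | ⟨-, ht⟩ <;> omega
        obtain ⟨l, hl⟩ : ∃ l : Fin t, l ≠ i := by
          by_cases h0 : i.val = 0
          · exact ⟨⟨1, by omega⟩, fun h => by rw [← h] at h0; simp at h0⟩
          · exact ⟨⟨0, by omega⟩, fun h => by rw [← h] at h0; simp at h0⟩
        have := congrFun heq l
        rw [ha'' l hl] at this
        unfold revI at this
        exact rev_ne hk (a l) this.symm

example : StG1Iso.{u} := g1Iso

end Cfsg.Agent.H72.TW
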