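import Mathlib
import Cfsg.Agent.Lib.Helper96.TWDefs
import Cfsg.Agent.H95.Quad
import Cfsg.Agent.H72.TWG1Iso

/-!
# S5707 piece S5707-G2PERM (helper72): a commutator of a reflection and a local shift lies in
`Ω` and acts on the standard basis as the double transposition `piG a₁ l`.
-/

set_option autoImplicit false

namespace Cfsg.Agent.H72.TW

open Cfsg Cfsg.Geo Matrix Cfsg.Agent.Lib.Helper96.TW
open scoped MatrixGroups

universe u

section basics2

variable {F : Type u} [Field F] {k t : ℕ}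

theorem revI_revI (a : Idx k t) : revI (revI a) = a := by
  funext i
  unfold revI
  rw [Fin.rev_rev]

theorem shI_shI (hk : k = 2 ∨ k = 4) (l : Fin t) (a : Idx k t) : shI l (shI l a) = a := by
  unfold shI
  rw [Function.update_self, sh_sh hk, Function.update_idem, Function.update_eq_self]

theorem shI_revI (hk : k = 2 ∨ k = 4) (l : Fin t) (a : Idx k t) :
    shI l (revI a) = revI (shI l a) := by
  funext m
  unfold shI revI
  by_cases hm : m = l
  · subst hm
    rw [Function.update_self, Function.update_self, sh_rev hk]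
  · rw [Function.update_of_ne hm, Function.update_of_ne hm]

theorem polar_single_left {Q : (Idx k t → F) → F} {c : F} (hS : SM k t Q c) (a : Idx k t)
    (y : Idx k t → F) : QuadraticMap.polar Q (Pi.single a 1) y = c * y (revI a) := by
  rw [hS.polar]
  congr 1
  rw [Finset.sum_eq_single a]
  · rw [Pi.single_eq_same, one_mul]
  · intro b _ hb
    rw [Pi.single_eq_of_ne hb, zero_mul]
  · intro h
    exact absurd (Finset.mem_univ a) h

theorem refl_single {Q : (Idx k t → F) → F} {c : F} (hS : SM k t Q c) (a₁ : Idx k t)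
    (hne : revI a₁ ≠ a₁)
    (hz : Q ((Pi.single a₁ 1 : Idx k t → F) + Pi.single (revI a₁) 1) ≠ 0) (a : Idx k t) :
    ((Cfsg.Agent.H95.reflGL Q hS.nd _ hz : GL (Idx k t) F) : Matrix (Idx k t) (Idx k t) F) *ᵥ
      Pi.single a 1 = Pi.single (Equiv.swap a₁ (revI a₁) a) 1 := by
  have h2 : (2 : F) = 0 := hS.two
  have hneg : ∀ v : Idx k t → F, -v = v := by
    intro v
    rw [neg_eq_iff_add_eq_zero, ← two_smul F v, h2, zero_smul]
  have hQz : Q ((Pi.single a₁ 1 : Idx k t → F) + Pi.single (revI a₁) 1) = c := by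
    rw [Cfsg.Agent.H95.q_add Q, hS.basis, hS.basis, polar_single_left hS, Pi.single_eq_same]
    simp
  rw [Cfsg.Agent.H95.reflGL_mulVec, hQz, polar_single_left hS,
    mul_div_cancel_left₀ _ hS.c_ne]
  by_cases ha : a = a₁
  · subst ha
    rw [Equiv.swap_apply_left, Pi.add_apply, Pi.single_eq_same, Pi.single_eq_of_ne hne, zero_add,
      one_smul, sub_add_eq_sub_sub, sub_self, zero_sub, hneg]
  · by_cases ha' : a = revI a₁
    · subst ha'
      rw [Equiv.swap_apply_right, revI_revI, Pi.add_apply, Pi.single_eq_same,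
        Pi.single_eq_of_ne (Ne.symm hne), add_zero, one_smul, add_comm, sub_add_eq_sub_sub,
        sub_self, zero_sub, hneg]
    · rw [Equiv.swap_apply_of_ne_of_ne ha ha', Pi.add_apply, Pi.single_eq_of_ne,
        Pi.single_eq_of_ne, add_zero, zero_smul, sub_zero]
      · intro h
        apply ha
        rw [← revI_revI a, h, revI_revI]
      · intro h
        apply ha'
        rw [← h, revI_revI]

end basics2

theorem g2Perm : StG2Perm.{u} := by
  intro hAlg hCliff hIso F _ k t Q c hC hS a₁ l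
  have h2 : (2 : F) = 0 := hS.two
  have hk : k = 2 ∨ k = 4 := by
    rcases hC with ⟨h, -⟩ | ⟨h, -⟩
    · exact Or.inl h
    · exact Or.inr h
  have ht : 2 ≤ t := by
    rcases hC with ⟨-, ht⟩ | ⟨-, ht⟩ <;> omega
  obtain ⟨-, -, -, -, -, -, -, hXX, -, -⟩ := hCliff F k h2 hk
  obtain ⟨h1, hmul, -, -, -, hpure, -⟩ := hAlg F k t
  have hne : revI a₁ ≠ a₁ := by
    intro h
    have := congrFun h ⟨0, by omega⟩
    exact rev_ne hk _ this
  have hz : Q ((Pi.single a₁ 1 : Idx k t → F) + Pi.single (revI a₁) 1) ≠ 0 := by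
    rw [Cfsg.Agent.H95.q_add Q, hS.basis, hS.basis, polar_single_left hS, Pi.single_eq_same]
    simpa using hS.c_ne
  -- the local shift
  have hhh : (loc l (Xm F k) : Matrix (Idx k t) (Idx k t) F) * loc l (Xm F k) = 1 := by
    rw [← hmul, hXX, h1]
  let h : GL (Idx k t) F := ⟨loc l (Xm F k), loc l (Xm F k), hhh, hhh⟩
  have hhval : (h : Matrix (Idx k t) (Idx k t) F) = loc l (Xm F k) := rfl
  have hhinv : h⁻¹ = h := by
    rw [inv_eq_iff_mul_eq_one]
    exact Units.ext hhh
  have hhmem : h ∈ isometryGroup F Q := by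
    refine hIso F k t Q c hS h ?_ ?_
    · intro a b
      refine polar_of_mat hS _ ?_ a b
      show (loc l (Xm F k) : Matrix (Idx k t) (Idx k t) F)ᵀ *
        pureM (fun _ : Fin t => Jm F k) * loc l (Xm F k) = pureM (fun _ : Fin t => Jm F k)
      rw [Matrix.mul_assoc, hpure (fun _ => Jm F k) l (Xm F k) (Xm F k) (Jm_Xm hk),
        loc_transpose, Xm_transpose hk, ← Matrix.mul_assoc, hhh, Matrix.one_mul]
    · intro a
      rw [hhval, loc_Xm_single hk, hS.basis]
  have hrmem := Cfsg.Agent.H95.reflGL_mem hS.nd _ hz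
  refine ⟨Cfsg.Agent.H95.reflGL Q hS.nd _ hz * h * (Cfsg.Agent.H95.reflGL Q hS.nd _ hz)⁻¹ * h⁻¹,
    Cfsg.Agent.H95.commutator_mem_omegaGL hrmem hhmem, ?_⟩
  intro a
  rw [Cfsg.Agent.H95.reflGL_inv, hhinv, Units.val_mul, Units.val_mul, Units.val_mul,
    ← Matrix.mulVec_mulVec, ← Matrix.mulVec_mulVec, ← Matrix.mulVec_mulVec, hhval,
    loc_Xm_single hk, refl_single hS a₁ hne hz, loc_Xm_single hk, refl_single hS a₁ hne hz]
  congr 1
  unfold piG
  rw [Equiv.Perm.mul_apply]
  congr 1
  -- `shI l (swap a₁ (revI a₁) (shI l a)) = swap (shI l a₁) (revI (shI l a₁)) a`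
  have hinv : Function.Involutive (shI l : Idx k t → Idx k t) := shI_shI hk l
  have e1 := Equiv.swap_apply_apply (hinv.toPerm) a₁ (revI a₁)
  have e2 := congrArg (fun f : Equiv.Perm (Idx k t) => f a) e1
  simp only [Equiv.Perm.mul_apply, Function.Involutive.coe_toPerm] at e2
  rw [shI_revI hk] at e2
  rw [e2]
  congr 2

example : StG2Perm.{u} := g2Perm

end Cfsg.Agent.H72.TW
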