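import Mathlib
import Cfsg.Agent.H42.TiDefs

/-!
# S5955 piece SPI-CNTP (helper72)
-/

set_option autoImplicit false

namespace Cfsg.Agent.H72.Ti

open Cfsg.Agent.H42.Spd Cfsg.Agent.H42.Ti Module

universe u

/-- The cancelled form of the count of totally isotropic `m`-spaces. -/
theorem ti_cancel (h1 : StTiTuples.{u}) (h2 : StTiFib.{u}) (F : Type u) [Field F] [Fintype F]
    (d m : ℕ) (hm : m ≤ d) :
    Nat.card {W : Submodule F (Fin d ⊕ Fin d → F) // Module.finrank F ↥W = m ∧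
        (∀ u ∈ W, ∀ v ∈ W, Cfsg.sympForm d F u v = 0)} *
      ∏ j ∈ Finset.range m, (Fintype.card F ^ (m - j) - 1) =
      ∏ j ∈ Finset.range m, (Fintype.card F ^ (2 * (d - j)) - 1) := by
  have e1 := h1 F d m hm
  have e2 := h2 F d m
  rw [e1] at e2
  set q := Fintype.card F with hq
  have hq0 : 0 < q := Fintype.card_pos
  have hA : ∏ j ∈ Finset.range m, (q ^ m - q ^ j) =
      (∏ j ∈ Finset.range m, q ^ j) * ∏ j ∈ Finset.range m, (q ^ (m - j) - 1) := by
    rw [← Finset.prod_mul_distrib]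
    refine Finset.prod_congr rfl ?_
    intro j hj
    have hj' : j < m := Finset.mem_range.mp hj
    rw [Nat.mul_sub, mul_one, ← pow_add]
    congr 2
    omega
  have hB : ∏ j ∈ Finset.range m, (q ^ (2 * d - j) - q ^ j) =
      (∏ j ∈ Finset.range m, q ^ j) * ∏ j ∈ Finset.range m, (q ^ (2 * (d - j)) - 1) := by
    rw [← Finset.prod_mul_distrib]
    refine Finset.prod_congr rfl ?_
    intro j hj
    have hj' : j < m := Finset.mem_range.mp hj
    rw [Nat.mul_sub, mul_one, ← pow_add]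
    congr 2
    omega
  rw [hA, hB] at e2
  have hP : 0 < ∏ j ∈ Finset.range m, q ^ j :=
    Finset.prod_pos (fun j _ => pow_pos hq0 j)
  have e3 : (∏ j ∈ Finset.range m, q ^ j) * ∏ j ∈ Finset.range m, (q ^ (2 * (d - j)) - 1) =
      (∏ j ∈ Finset.range m, q ^ j) *
        (Nat.card {W : Submodule F (Fin d ⊕ Fin d → F) // Module.finrank F ↥W = m ∧
          (∀ u ∈ W, ∀ v ∈ W, Cfsg.sympForm d F u v = 0)} *
        ∏ j ∈ Finset.range m, (q ^ (m - j) - 1)) := by
    rw [e2]; ring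
  exact (Nat.eq_of_mul_eq_mul_left hP e3).symm

theorem tiCntP (h1 : StTiTuples.{u}) (h2 : StTiFib.{u}) : StTiCntP.{u} := by
  intro F _ _ p _ _ d m hm hdvd
  have hp : p.Prime := Fact.out
  have hc := ti_cancel h1 h2 F d m hm
  have h3 : p ∣ ∏ j ∈ Finset.range m, (Fintype.card F ^ (2 * (d - j)) - 1) := by
    rw [← hc]
    exact Dvd.dvd.mul_right hdvd _
  obtain ⟨j, hj, hjd⟩ := (Prime.dvd_finsetProd_iff hp.prime _).mp h3
  have hj' : j < m := Finset.mem_range.mp hj
  obtain ⟨n, _, hn⟩ := FiniteField.card F p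
  have hpq : p ∣ Fintype.card F := by
    rw [hn]
    exact dvd_pow_self p n.pos.ne'
  have hpe : p ∣ Fintype.card F ^ (2 * (d - j)) := by
    refine Dvd.dvd.trans hpq (dvd_pow_self _ ?_)
    omega
  have hpos : 0 < Fintype.card F ^ (2 * (d - j)) := pow_pos Fintype.card_pos _
  have h1' : p ∣ 1 := by
    have := (Nat.dvd_sub hpe hjd)
    rwa [Nat.sub_sub_self hpos] at this
  exact hp.one_lt.ne' (Nat.dvd_one.mp h1')

example (h1 : StTiTuples.{u}) (h2 : StTiFib.{u}) : StTiCntP.{u} := tiCntP h1 h2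

end Cfsg.Agent.H72.Ti
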