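import Mathlib
import Cfsg.Agent.H42.TiDefs
import Cfsg.Agent.H72.TiCntP

/-!
# S5955 piece SPI-CNT (helper72)
-/

set_option autoImplicit false

namespace Cfsg.Agent.H72.Ti

open Cfsg.Agent.H42.Spd Cfsg.Agent.H42.Ti Module

universe u

theorem tiCnt (h1 : StTiTuples.{u}) (h2 : StTiFib.{u}) : StTiCnt.{u} := by
  intro F _ _ d m r hr _ hm hdvd
  have hc := ti_cancel h1 h2 F d m hm
  have h3 : r ∣ ∏ j ∈ Finset.range m, (Fintype.card F ^ (2 * (d - j)) - 1) := by
    rw [← hc]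
    exact Dvd.dvd.mul_right hdvd _
  obtain ⟨j, hj, hjd⟩ := (Prime.dvd_finsetProd_iff hr.prime _).mp h3
  have hj' : j < m := Finset.mem_range.mp hj
  have hpos : 1 ≤ Fintype.card F ^ (2 * (d - j)) := pow_pos Fintype.card_pos _
  have hz : ((Fintype.card F : ZMod r)) ^ (2 * (d - j)) = 1 := by
    have h4 : ((Fintype.card F ^ (2 * (d - j)) - 1 : ℕ) : ZMod r) = 0 :=
      (ZMod.natCast_eq_zero_iff _ _).mpr hjd
    rw [Nat.cast_sub hpos, Nat.cast_pow, Nat.cast_one, sub_eq_zero] at h4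
    exact h4
  have hord : orderOf (Fintype.card F : ZMod r) ∣ 2 * (d - j) := orderOf_dvd_of_pow_eq_one hz
  refine ⟨d - j, by omega, by omega, ?_⟩
  unfold cc
  split_ifs with he
  · exact hord
  · have hodd : Odd (orderOf (Fintype.card F : ZMod r)) := Nat.not_even_iff_odd.mp he
    have hcop : Nat.Coprime (orderOf (Fintype.card F : ZMod r)) 2 :=
      (Nat.coprime_two_right).mpr hodd
    exact Nat.mul_dvd_mul_left 2 (hcop.dvd_of_dvd_mul_left hord)

example (h1 : StTiTuples.{u}) (h2 : StTiFib.{u}) : StTiCnt.{u} := tiCnt h1 h2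

end Cfsg.Agent.H72.Ti
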