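import Mathlib
import Cfsg.Agent.H42.TiDefs

/-!
# S5955 piece SPI-FIB (helper72)

Every totally isotropic `m`-space has `∏_{j<m} (q^m - q^j)` ordered bases.
-/

set_option autoImplicit false

namespace Cfsg.Agent.H72.Ti

open Cfsg.Agent.H45 Cfsg.Agent.H42.Spd Cfsg.Agent.H42.Spn Cfsg.Agent.H42.Ti Module

universe u

theorem span_ti {F : Type u} [Field F] (d m : ℕ) (v : Fin m → (Fin d ⊕ Fin d → F))
    (h : ∀ a b, stdB d F (v a) (v b) = 0) :
    ∀ u ∈ Submodule.span F (Set.range v), ∀ w ∈ Submodule.span F (Set.range v),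
      stdB d F u w = 0 := by
  intro u hu w hw
  refine Submodule.span_induction (p := fun u _ => stdB d F u w = 0) ?_ ?_ ?_ ?_ hu
  · rintro _ ⟨a, rfl⟩
    refine Submodule.span_induction (p := fun w _ => stdB d F (v a) w = 0) ?_ ?_ ?_ ?_ hw
    · rintro _ ⟨b, rfl⟩
      exact h a b
    · simp
    · intro x y _ _ hx hy
      rw [map_add, hx, hy, add_zero]
    · intro c x _ hx
      rw [map_smul, hx, smul_zero]
  · simp
  · intro x y _ _ hx hy
    rw [map_add, LinearMap.add_apply, hx, hy, add_zero]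
  · intro c x _ hx
    rw [map_smul, LinearMap.smul_apply, hx, smul_zero]

theorem tiFib : StTiFib.{u} := by
  classical
  intro F _ _ d m
  let f : {v : Fin m → (Fin d ⊕ Fin d → F) // LinearIndependent F v ∧
        ∀ a b, Cfsg.sympForm d F (v a) (v b) = 0} →
      {W : Submodule F (Fin d ⊕ Fin d → F) // Module.finrank F ↥W = m ∧
        (∀ u ∈ W, ∀ v ∈ W, Cfsg.sympForm d F u v = 0)} :=
    fun v => ⟨Submodule.span F (Set.range v.1),
      by rw [finrank_span_eq_card v.2.1, Fintype.card_fin],
      fun u hu w hw => by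
        rw [← stdB_apply]
        exact span_ti d m v.1 (fun a b => by rw [stdB_apply]; exact v.2.2 a b) u hu w hw⟩
  have hfib : ∀ W : {W : Submodule F (Fin d ⊕ Fin d → F) // Module.finrank F ↥W = m ∧
        (∀ u ∈ W, ∀ v ∈ W, Cfsg.sympForm d F u v = 0)},
      Nat.card {v // f v = W} =
        ∏ j ∈ Finset.range m, (Fintype.card F ^ m - Fintype.card F ^ j) := by
    intro W
    have hcl := card_linearIndependent (K := F) (V := W.1) (k := m) (le_of_eq W.2.1.symm)
    rw [W.2.1, Fin.prod_univ_eq_prod_range (fun j => Fintype.card F ^ m - Fintype.card F ^ j) m]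
      at hcl
    rw [← hcl]
    refine Nat.card_congr ?_
    refine
      { toFun := fun v => ⟨fun i => ⟨v.1.1 i, ?_⟩, ?_⟩
        invFun := fun s => ⟨⟨fun i => (s.1 i : (Fin d ⊕ Fin d → F)), ?_, ?_⟩, ?_⟩
        left_inv := ?_
        right_inv := ?_ }
    · have h1 : Submodule.span F (Set.range v.1.1) = W.1 := congrArg Subtype.val v.2
      rw [← h1]
      exact Submodule.subset_span ⟨i, rfl⟩
    · refine LinearIndependent.of_comp W.1.subtype ?_
      exact v.1.2.1
    · exact s.2.map' W.1.subtype (Submodule.ker_subtype _)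
    · intro a b
      exact W.2.2 _ (s.1 a).2 _ (s.1 b).2
    · refine Subtype.ext ?_
      show Submodule.span F (Set.range fun i => (s.1 i : (Fin d ⊕ Fin d → F))) = W.1
      have hLI : LinearIndependent F (fun i => (s.1 i : (Fin d ⊕ Fin d → F))) :=
        s.2.map' W.1.subtype (Submodule.ker_subtype _)
      refine Submodule.eq_of_le_of_finrank_eq ?_ ?_
      · rw [Submodule.span_le]
        rintro _ ⟨i, rfl⟩
        exact (s.1 i).2
      · rw [finrank_span_eq_card hLI, Fintype.card_fin, W.2.1]
    · intro v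
      exact Subtype.ext (Subtype.ext rfl)
    · intro s
      exact Subtype.ext rfl
  have : Fintype {W : Submodule F (Fin d ⊕ Fin d → F) // Module.finrank F ↥W = m ∧
        (∀ u ∈ W, ∀ v ∈ W, Cfsg.sympForm d F u v = 0)} := Fintype.ofFinite _
  rw [← Nat.card_congr (Equiv.sigmaFiberEquiv f), Nat.card_sigma,
    Finset.sum_congr rfl (fun W _ => hfib W), Finset.sum_const, Finset.card_univ,
    smul_eq_mul, Nat.card_eq_fintype_card]

example : StTiFib.{u} := tiFib

end Cfsg.Agent.H72.Ti
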