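import Mathlib
import Cfsg.Agent.H42.TiDefs

/-!
# S5955 piece SPI-ODDINV (helper72)
-/

set_option autoImplicit false

namespace Cfsg.Agent.H72.Ti

open Cfsg.Agent.H42.Ti Module

universe u v

theorem tiOddInv : StTiOddInv.{u, v} := by
  intro F _ V _ _ _ T hsq hT W hW
  by_contra hodd
  rw [Nat.not_even_iff_odd] at hodd
  have hW' : ∀ x ∈ W, T x ∈ W := (Module.End.mem_invtSubmodule_iff_forall_mem_of_mem T).mp hW
  let T' : Module.End F W := T.restrict hW'
  have hT' : T' * T' = (-1 : F) • (1 : Module.End F W) := by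
    ext x
    have h := congrArg (fun f : Module.End F V => f (x : V)) hT
    simpa [T'] using h
  have hdet : LinearMap.det T' * LinearMap.det T' = (-1 : F) ^ Module.finrank F W := by
    rw [← map_mul, hT', LinearMap.det_smul, map_one, mul_one]
  rw [hodd.neg_one_pow] at hdet
  exact hsq ⟨LinearMap.det T', hdet.symm⟩

example : StTiOddInv.{u, v} := tiOddInv

end Cfsg.Agent.H72.Ti
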