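import Mathlib
import Cfsg.Agent.H42.TiDefs

/-!
# S5955 piece SPI-TUPLES (helper72)

The number of linearly independent `m`-tuples of pairwise orthogonal vectors of the standard
symplectic space of dimension `2 d` is `∏_{j<m} (q^(2d-j) - q^j)`.
-/

set_option autoImplicit false

namespace Cfsg.Agent.H72.Ti

open Cfsg.Agent.H45 Cfsg.Agent.H42.Spd Cfsg.Agent.H42.Spn Cfsg.Agent.H42.Ti Module

universe u

section

variable {F : Type u} [Field F]

theorem stdB_nondegenerate (d : ℕ) : LinearMap.BilinForm.Nondegenerate (stdB d F) := by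
  refine ⟨fun x hx => stdB_nondeg d x hx, fun y hy => stdB_nondeg d y (fun x => ?_)⟩
  rw [stdB_skew, hy, neg_zero]

/-- The vectors orthogonal to, but not in the span of, an independent isotropic `m`-tuple. -/
theorem ti_fib_card [Fintype F] (d m : ℕ) (v : Fin m → (Fin d ⊕ Fin d → F))
    (hLI : LinearIndependent F v) (horth : ∀ a b, stdB d F (v a) (v b) = 0) :
    Nat.card {w : (Fin d ⊕ Fin d → F) //
        w ∉ Submodule.span F (Set.range v) ∧ ∀ a, stdB d F (v a) w = 0} =
      Fintype.card F ^ (2 * d - m) - Fintype.card F ^ m := by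
  classical
  set S := Submodule.span F (Set.range v) with hS
  set K := LinearMap.BilinForm.orthogonal (stdB d F) S with hK
  have hmemK : ∀ w, (∀ a, stdB d F (v a) w = 0) ↔ w ∈ K := by
    intro w
    constructor
    · intro h n hn
      show stdB d F n w = 0
      refine Submodule.span_induction ?_ ?_ ?_ ?_ hn
      · rintro _ ⟨a, rfl⟩
        exact h a
      · simp
      · intro x y _ _ hx hy
        rw [map_add, LinearMap.add_apply, hx, hy, add_zero]
      · intro c x _ hx
        rw [map_smul, LinearMap.smul_apply, hx, smul_zero]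
    · intro h a
      exact h (v a) (Submodule.subset_span ⟨a, rfl⟩)
  have hSK : S ≤ K := by
    intro w hw
    rw [← hmemK]
    intro a
    refine Submodule.span_induction ?_ ?_ ?_ ?_ hw
    · rintro _ ⟨b, rfl⟩
      exact horth a b
    · simp
    · intro x y _ _ hx hy
      rw [map_add, hx, hy, add_zero]
    · intro c x _ hx
      rw [map_smul, hx, smul_zero]
  have hSr : Module.finrank F S = m := by
    rw [hS, finrank_span_eq_card hLI, Fintype.card_fin]
  have hKr : Module.finrank F K = 2 * d - m := by
    rw [hK, LinearMap.BilinForm.finrank_orthogonal (stdB_nondegenerate d), hSr,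
      Module.finrank_fintype_fun_eq_card, Fintype.card_sum, Fintype.card_fin]
    omega
  have hset : {w : (Fin d ⊕ Fin d → F) | w ∉ S ∧ ∀ a, stdB d F (v a) w = 0} =
      (K : Set (Fin d ⊕ Fin d → F)) \ (S : Set (Fin d ⊕ Fin d → F)) := by
    ext w
    simp only [Set.mem_ofPred_eq, Set.mem_sdiff, SetLike.mem_coe, hmemK]
    tauto
  have hcard : Nat.card {w : (Fin d ⊕ Fin d → F) // w ∉ S ∧ ∀ a, stdB d F (v a) w = 0} =
      ((K : Set (Fin d ⊕ Fin d → F)) \ (S : Set (Fin d ⊕ Fin d → F))).ncard := by
    rw [← hset]
    rfl
  have hKc : (K : Set (Fin d ⊕ Fin d → F)).ncard = Fintype.card F ^ (2 * d - m) := by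
    rw [← Nat.card_coe_set_eq, ← hKr, ← Nat.card_eq_fintype_card]
    exact Module.natCard_eq_pow_finrank (K := F) (V := K)
  have hSc : (S : Set (Fin d ⊕ Fin d → F)).ncard = Fintype.card F ^ m := by
    rw [← Nat.card_coe_set_eq, ← Nat.card_eq_fintype_card]
    conv_rhs => rw [← hSr]
    exact Module.natCard_eq_pow_finrank (K := F) (V := S)
  rw [hcard, Set.ncard_sdiff (by exact_mod_cast hSK) (Set.toFinite _), hKc, hSc]

end

theorem tiTuples : StTiTuples.{u} := by
  classical
  intro F _ _ d m
  induction m with
  | zero =>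
    intro _
    rw [Finset.prod_range_zero]
    have : Unique {v : Fin 0 → (Fin d ⊕ Fin d → F) // LinearIndependent F v ∧
        ∀ a b, Cfsg.sympForm d F (v a) (v b) = 0} :=
      { default := ⟨fun i => i.elim0, linearIndependent_empty_type, fun a => a.elim0⟩
        uniq := fun x => Subtype.ext (Subsingleton.elim _ _) }
    exact Nat.card_unique
  | succ m ih =>
    intro hm
    have ih' := ih (by omega)
    rw [Finset.prod_range_succ, ← ih']
    let g : {v : Fin (m + 1) → (Fin d ⊕ Fin d → F) // LinearIndependent F v ∧
        ∀ a b, Cfsg.sympForm d F (v a) (v b) = 0} →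
        {v : Fin m → (Fin d ⊕ Fin d → F) // LinearIndependent F v ∧
        ∀ a b, Cfsg.sympForm d F (v a) (v b) = 0} :=
      fun u => ⟨Fin.init u.1, u.2.1.comp _ (Fin.castSucc_injective m),
        fun a b => u.2.2 a.castSucc b.castSucc⟩
    have hfib : ∀ v : {v : Fin m → (Fin d ⊕ Fin d → F) // LinearIndependent F v ∧
        ∀ a b, Cfsg.sympForm d F (v a) (v b) = 0},
        Nat.card {u // g u = v} = Fintype.card F ^ (2 * d - m) - Fintype.card F ^ m := by
      intro v
      rw [← ti_fib_card d m v.1 v.2.1 (fun a b => by rw [stdB_apply]; exact v.2.2 a b)]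
      refine Nat.card_congr ?_
      refine
        { toFun := fun u => ⟨u.1.1 (Fin.last m), ?_, ?_⟩
          invFun := fun w => ⟨⟨Fin.snoc v.1 w.1, ?_, ?_⟩, ?_⟩
          left_inv := ?_
          right_inv := ?_ }
      · have h1 : Fin.init u.1.1 = v.1 := congrArg Subtype.val u.2
        have h2 := u.1.2.1
        rw [← Fin.snoc_init_self u.1.1, linearIndependent_finSnoc, h1] at h2
        exact h2.2
      · intro a
        have h1 : Fin.init u.1.1 = v.1 := congrArg Subtype.val u.2
        rw [← h1, stdB_apply]
        exact u.1.2.2 a.castSucc (Fin.last m)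
      · exact linearIndependent_finSnoc.mpr ⟨v.2.1, w.2.1⟩
      · intro a b
        rw [← stdB_apply]
        induction a using Fin.lastCases with
        | last =>
          induction b using Fin.lastCases with
          | last => exact stdB_alt d _
          | cast b =>
            rw [Fin.snoc_last, Fin.snoc_castSucc, stdB_skew, w.2.2 b, neg_zero]
        | cast a =>
          induction b using Fin.lastCases with
          | last =>
            rw [Fin.snoc_last, Fin.snoc_castSucc]
            exact w.2.2 a
          | cast b =>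
            rw [Fin.snoc_castSucc, Fin.snoc_castSucc, stdB_apply]
            exact v.2.2 a b
      · refine Subtype.ext ?_
        show Fin.init (Fin.snoc (α := fun _ => (Fin d ⊕ Fin d → F)) v.1 w.1) = v.1
        exact Fin.init_snoc _ _
      · intro u
        have h1 : Fin.init u.1.1 = v.1 := congrArg Subtype.val u.2
        refine Subtype.ext (Subtype.ext ?_)
        show Fin.snoc v.1 (u.1.1 (Fin.last m)) = u.1.1
        rw [← h1]
        exact Fin.snoc_init_self _
      · intro w
        refine Subtype.ext ?_
        show Fin.snoc (α := fun _ => (Fin d ⊕ Fin d → F)) v.1 w.1 (Fin.last m) = w.1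
        exact Fin.snoc_last _ _
    have : Fintype {v : Fin m → (Fin d ⊕ Fin d → F) // LinearIndependent F v ∧
        ∀ a b, Cfsg.sympForm d F (v a) (v b) = 0} := Fintype.ofFinite _
    rw [← Nat.card_congr (Equiv.sigmaFiberEquiv g), Nat.card_sigma,
      Finset.sum_congr rfl (fun v _ => hfib v), Finset.sum_const, Finset.card_univ,
      smul_eq_mul, Nat.card_eq_fintype_card]

example : StTiTuples.{u} := tiTuples

end Cfsg.Agent.H72.Ti
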